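import Mathlib

/-! Low-dimensional projective representations of alternating groups, part A (helper7): weight-vector
lemmas (`li_of_wt`, `mul_le_finrank`, `ext_wt`, `dich`), the configuration `Cfg π ρ` (central extension of `A_Ω` by an
elementary abelian 2-group acting by signs), odd lifts, restriction to subsets (`Cfg.res`, `Cfg.spread`). -/
set_option autoImplicit false
set_option linter.unusedSectionVars false
open Module Equiv Equiv.Perm Subgroup

namespace Cfsg.Agent.AltRep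

section lin
variable {K V : Type*} [Field K] [AddCommGroup V] [Module K V]

theorem li_of_wt {ι A : Type*} (f : A → End K V) (l : ι → A → K) (hl : Function.Injective l) (v : ι → V)
    (h0 : ∀ i, v i ≠ 0) (hv : ∀ i a, f a (v i) = l i a • v i) : LinearIndependent K v := by
  classical
  rw [linearIndependent_iff']
  intro s
  induction s using Finset.induction_on with
  | empty => simp
  | insert j s hj ih =>
    intro g hg
    rw [Finset.sum_insert hj] at hg
    have h1 : ∀ i ∈ s, g i = 0 := fun i hi => by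
      obtain ⟨a, ha⟩ := Function.ne_iff.1 (hl.ne (show i ≠ j from fun e => hj (e ▸ hi)))
      have h2 := congrArg (f a - l j a • (1 : End K V)) hg
      simp only [map_add, map_sum, map_smul, LinearMap.sub_apply, LinearMap.smul_apply, End.one_apply, hv, sub_self,
        smul_zero, zero_add, map_zero, ← sub_smul, smul_smul] at h2
      exact (mul_eq_zero.1 (ih (fun i => g i * (l i a - l j a)) (by simpa using h2) i hi)).resolve_right (sub_ne_zero.2 ha)
    intro i hi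
    rcases Finset.mem_insert.1 hi with rfl | hi
    · rw [Finset.sum_eq_zero fun i hi => by rw [h1 i hi, zero_smul], add_zero] at hg
      exact (smul_eq_zero.1 hg).resolve_right (h0 _)
    · exact h1 i hi

variable [FiniteDimensional K V]

theorem mul_le_finrank (f : End K V) (s : Finset K) (d : ℕ) (h : ∀ μ ∈ s, d ≤ finrank K (f.eigenspace μ)) :
    s.card * d ≤ finrank K V := by
  classical
  suffices s.card * d ≤ finrank K (⨆ μ ∈ s, f.eigenspace μ : Submodule K V) from this.trans (Submodule.finrank_le _)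
  induction s using Finset.induction_on with
  | empty => simp
  | insert j s hj ih =>
    have h1 := Submodule.finrank_sup_add_finrank_inf_eq (f.eigenspace j) (⨆ μ ∈ s, f.eigenspace μ)
    have h2 : Disjoint (f.eigenspace j) (⨆ μ ∈ s, f.eigenspace μ) :=
      f.eigenspaces_iSupIndep.disjoint_biSup (y := (s : Set K)) hj
    rw [h2.eq_bot, finrank_bot] at h1
    rw [Finset.iSup_insert, Finset.card_insert_of_notMem hj, add_mul, one_mul]
    have := ih fun μ hμ => h μ (Finset.mem_insert_of_mem hμ)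
    have := h j (Finset.mem_insert_self _ _)
    omega

theorem ss_of_pow {f : End K V} {l : ℕ} (hl : (l : K) ≠ 0) (h : f ^ l = 1) : f.IsSemisimple :=
  End.isSemisimple_of_squarefree_aeval_eq_zero (Polynomial.separable_X_pow_sub_C 1 hl one_ne_zero).squarefree
    (by simp [h])

variable [IsAlgClosed K]

theorem ext_eig {f T : End K V} {l : ℕ} (hl : (l : K) ≠ 0) (h : f ^ l = 1) (hT : ∀ (μ : K) v, f v = μ • v → T v = 0) :
    T = 0 := by
  rw [← LinearMap.ker_eq_top, eq_top_iff, ← (ss_of_pow hl h).iSup_eigenspace_eq_top]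
  exact iSup_le fun μ v hv => hT μ v (End.mem_eigenspace_iff.1 hv)

theorem ext_wt {f g T : End K V} {l : ℕ} (hl : (l : K) ≠ 0) (hf : f ^ l = 1) (hg : g ^ l = 1) (hc : Commute f g)
    (hT : ∀ (μ ν : K) v, f v = μ • v → g v = ν • v → T v = 0) : T = 0 := by
  refine ext_eig hl hf fun μ v hv => ?_
  have h1 := Submodule.eq_iSup_inf_genEigenspace (p := f.eigenspace μ) (f := g) 1 (fun x hx => by
    rw [End.mem_eigenspace_iff] at hx ⊢
    rw [← End.mul_apply, hc.eq, End.mul_apply, hx, map_smul]) (ss_of_pow hl hg).iSup_eigenspace_eq_top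
  have h2 : f.eigenspace μ ≤ LinearMap.ker T := by
    rw [h1]
    exact iSup_le fun ν x hx => hT μ ν x (End.mem_eigenspace_iff.1 hx.1) (End.mem_eigenspace_iff.1 hx.2)
  exact h2 (End.mem_eigenspace_iff.2 hv)

omit [FiniteDimensional K V] [IsAlgClosed K] in
theorem pow_eig {f : End K V} {μ : K} {v : V} (h : f v = μ • v) (n : ℕ) : (f ^ n) v = μ ^ n • v := by
  induction n with
  | zero => simp
  | succ n ih => rw [pow_succ, End.mul_apply, h, map_smul, ih, smul_smul, pow_succ']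

omit [FiniteDimensional K V] [IsAlgClosed K] in
theorem prim_of_eig {f : End K V} {μ : K} {v : V} {l : ℕ} (hl : l.Prime) (hf : f ^ l = 1) (h : f v = μ • v) (h0 : v ≠ 0) :
    μ ^ l = 1 ∧ (μ ≠ 1 → IsPrimitiveRoot μ l) := by
  have h1 : μ ^ l = 1 := by
    have := pow_eig h l
    rw [hf, End.one_apply] at this
    exact smul_left_injective K h0 (by simpa using this.symm)
  have := Fact.mk hl
  exact ⟨h1, fun h2 => orderOf_eq_prime h1 h2 ▸ IsPrimitiveRoot.orderOf μ⟩

variable {H : Type*} [Group H] (ρ : H →* End K V)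

omit [FiniteDimensional K V] [IsAlgClosed K] in
theorem conj_eig {g c c' : H} {a : ℕ} (h : g * c * g⁻¹ = c' ^ a) {μ : K} {v : V} (hv : ρ c' v = μ • v) :
    ρ c (ρ g⁻¹ v) = μ ^ a • ρ g⁻¹ v := by
  rw [← End.mul_apply, ← map_mul, show c * g⁻¹ = g⁻¹ * c' ^ a by rw [← h]; group, map_mul, End.mul_apply, map_pow,
    pow_eig hv, map_smul]

omit [FiniteDimensional K V] [IsAlgClosed K] in
theorem inv_app (g : H) (v : V) : ρ g (ρ g⁻¹ v) = v := by
  rw [← End.mul_apply, ← map_mul, mul_inv_cancel, map_one, End.one_apply]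

omit [FiniteDimensional K V] [IsAlgClosed K] in
theorem app_ne (g : H) {v : V} (h : v ≠ 0) : ρ g v ≠ 0 := fun e => h (by
  rw [← inv_app ρ g⁻¹ v, inv_inv, e, map_zero])

/-- the basic dichotomy for a rational element `c` of prime order -/
theorem dich {c g : H} {l a d : ℕ} (hl : l.Prime) (hK : (l : K) ≠ 0) (hc : c ^ l = 1) (hg : g * c * g⁻¹ = c ^ a)
    (ha : ∀ j < l, 0 < j → ∃ i < l, a ^ i % l = j) (Y : Set H) (hY : ∀ y ∈ Y, g⁻¹ * y * g ∈ Y)
    (hd : ∀ μ, (∃ y ∈ Y, ∃ w ∈ (ρ c).eigenspace μ, ρ y w ≠ w) → d ≤ finrank K ((ρ c).eigenspace μ)) :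
    (l - 1) * d ≤ finrank K V ∨ ∀ y ∈ Y, (ρ y - 1) * (ρ c - 1) = 0 := by
  classical
  have hc' : ρ c ^ l = 1 := by rw [← map_pow, hc, map_one]
  by_cases h : ∃ μ ≠ 1, ∃ y ∈ Y, ∃ w ∈ (ρ c).eigenspace μ, ρ y w ≠ w
  · obtain ⟨μ, h1, h2⟩ := h
    have h3 : IsPrimitiveRoot μ l := by
      obtain ⟨y, -, w, hw, n⟩ := h2
      exact (prim_of_eig hl hc' (End.mem_eigenspace_iff.1 hw) fun e => n (by simp [e])).2 h1
    have h4 : ∀ i, ∃ y ∈ Y, ∃ w ∈ (ρ c).eigenspace (μ ^ a ^ i), ρ y w ≠ w := fun i => by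
      induction i with
      | zero => simpa using h2
      | succ i ih =>
        obtain ⟨y, hy, w, hw, n⟩ := ih
        refine ⟨_, hY y hy, ρ g⁻¹ w, End.mem_eigenspace_iff.2 ?_, fun e => n ?_⟩
        · rw [conj_eig ρ hg (End.mem_eigenspace_iff.1 hw), ← pow_mul, pow_succ]
        · have := congrArg (ρ g) e
          rwa [map_mul, map_mul, End.mul_apply, End.mul_apply, inv_app, inv_app] at this
    left
    have := mul_le_finrank (ρ c) ((Finset.Ico 1 l).image (μ ^ ·)) d fun ν hν => by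
      obtain ⟨j, hj, rfl⟩ := Finset.mem_image.1 hν
      obtain ⟨i, -, rfl⟩ := ha j (Finset.mem_Ico.1 hj).2 (Finset.mem_Ico.1 hj).1
      rw [← pow_eq_pow_mod _ h3.pow_eq_one]
      exact hd _ (h4 i)
    rwa [Finset.card_image_of_injOn fun i hi j hj e => h3.pow_inj (Finset.mem_Ico.1 hi).2 (Finset.mem_Ico.1 hj).2 e,
      Nat.card_Ico] at this
  · push Not at h
    refine Or.inr fun y hy => ext_eig hK hc' fun μ v hv => ?_
    rw [End.mul_apply, LinearMap.sub_apply (ρ c), hv, End.one_apply]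
    by_cases e : μ = 1
    · simp [e]
    · simp [h μ e y hy v (End.mem_eigenspace_iff.2 hv)]

omit [IsAlgClosed K] in
theorem two_le_of_comm {W : Submodule K V} {y y' : H} (hy : ∀ h ∈ closure {y, y'}, ∀ w ∈ W, ρ h w ∈ W) {w : V} (hw : w ∈ W)
    (n : ρ (y * y' * y⁻¹ * y'⁻¹) w ≠ w) : 2 ≤ finrank K W := by
  by_contra h
  obtain ⟨v, hv⟩ := finrank_le_one_iff.1 (show finrank K W ≤ 1 by omega)
  have m1 : y ∈ closure {y, y'} := subset_closure (by simp)
  have m2 : y' ∈ closure {y, y'} := subset_closure (by simp)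
  obtain ⟨a, ha⟩ := hv ⟨_, hy y m1 v v.2⟩
  obtain ⟨b, hb⟩ := hv ⟨_, hy y' m2 v v.2⟩
  obtain ⟨c, hc⟩ := hv ⟨_, hy _ (mul_mem (inv_mem m1) (inv_mem m2)) w hw⟩
  simp only [Subtype.ext_iff, Submodule.coe_smul] at ha hb hc
  apply n
  calc _ = ρ y (ρ y' (ρ (y⁻¹ * y'⁻¹) w)) := by simp only [map_mul, End.mul_apply]
    _ = ρ y' (ρ y (ρ (y⁻¹ * y'⁻¹) w)) := by
      rw [← hc]; simp only [map_smul, ← ha, ← hb, smul_smul, mul_right_comm c a b]
    _ = w := by simp only [map_mul, End.mul_apply, inv_app]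

/-- weights of a pair of elements, as exponents of a primitive root -/
def Wt (l : ℕ) (c c' : H) (μ : K) (x : ZMod l × ZMod l) : Prop :=
  ∃ v ≠ 0, ρ c v = μ ^ x.1.val • v ∧ ρ c' v = μ ^ x.2.val • v

omit [IsAlgClosed K] in
theorem card_le_of_wt {l : ℕ} [NeZero l] {c c' : H} {μ : K} (hμ : IsPrimitiveRoot μ l) (s : Finset (ZMod l × ZMod l))
    (h : ∀ x ∈ s, Wt ρ l c c' μ x) : s.card ≤ finrank K V := by
  choose v h0 h1 h2 using fun x : s => h x x.2
  have := (li_of_wt (fun b : Bool => if b then ρ c else ρ c') (fun (x : s) b => if b then μ ^ x.1.1.val else μ ^ x.1.2.val)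
    (fun x y e => Subtype.ext (Prod.ext
      (ZMod.val_injective _ (hμ.pow_inj (ZMod.val_lt _) (ZMod.val_lt _) (by simpa using congrFun e true)))
      (ZMod.val_injective _ (hμ.pow_inj (ZMod.val_lt _) (ZMod.val_lt _) (by simpa using congrFun e false))))) v h0
    fun x b => by cases b <;> simp [h1, h2]).fintype_card_le_finrank
  simpa using this

omit [FiniteDimensional K V] [IsAlgClosed K] in
theorem pow_val_mul {l : ℕ} [NeZero l] {μ : K} (hμ : μ ^ l = 1) (x : ZMod l) (a : ℕ) :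
    (μ ^ x.val) ^ a = μ ^ ((a : ZMod l) * x).val := by
  rw [ZMod.val_mul, ZMod.val_natCast, ← pow_eq_pow_mod _ hμ, pow_mul μ, ← pow_eq_pow_mod _ hμ, ← pow_mul, ← pow_mul, mul_comm]

omit [FiniteDimensional K V] [IsAlgClosed K] in
theorem Wt.swap {l a : ℕ} [NeZero l] {c c' g : H} {μ : K} (hμ : μ ^ l = 1) (h1 : g * c * g⁻¹ = c' ^ a) (h2 : g * c' * g⁻¹ = c)
    {x : ZMod l × ZMod l} (h : Wt ρ l c c' μ x) : Wt ρ l c c' μ (a * x.2, x.1) := by
  obtain ⟨v, h0, e1, e2⟩ := h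
  exact ⟨_, app_ne ρ g⁻¹ h0, by rw [conj_eig ρ h1 e2, pow_val_mul hμ],
    by rw [conj_eig ρ (h2.trans (pow_one c).symm) e1, pow_one]⟩

omit [FiniteDimensional K V] [IsAlgClosed K] in
theorem Wt.left {l a : ℕ} [NeZero l] {c c' g : H} {μ : K} (hμ : μ ^ l = 1) (h1 : g * c * g⁻¹ = c ^ a) (h2 : g * c' * g⁻¹ = c')
    {x : ZMod l × ZMod l} (h : Wt ρ l c c' μ x) : Wt ρ l c c' μ (a * x.1, x.2) := by
  obtain ⟨v, h0, e1, e2⟩ := h
  exact ⟨_, app_ne ρ g⁻¹ h0, by rw [conj_eig ρ h1 e1, pow_val_mul hμ],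
    by rw [conj_eig ρ (h2.trans (pow_one c').symm) e2, pow_one]⟩

theorem exists_wt {l : ℕ} [hl : Fact l.Prime] (hK : (l : K) ≠ 0) {c c' : H} (h1 : c ^ l = 1) (h2 : c' ^ l = 1) (hc : Commute c c')
    {T : End K V} (hT : T * (ρ c - 1) ≠ 0) : ∃ μ j, IsPrimitiveRoot μ l ∧ Wt ρ l c c' μ (1, j) ∧ (T = ρ c' - 1 → j ≠ 0) := by
  have h1' : ρ c ^ l = 1 := by rw [← map_pow, h1, map_one]
  have h2' : ρ c' ^ l = 1 := by rw [← map_pow, h2, map_one]
  by_contra h
  refine hT (ext_wt hK h1' h2' (hc.map ρ) fun μ ν v e1 e2 => by_contra fun n => h ?_)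
  rw [End.mul_apply, LinearMap.sub_apply, e1, End.one_apply] at n
  have h0 : v ≠ 0 := fun e => n (by simp [e])
  have hμ := (prim_of_eig hl.out h1' e1 h0).2 fun e => n (by simp [e])
  obtain ⟨j, hj, rfl⟩ := hμ.eq_pow_of_pow_eq_one (prim_of_eig hl.out h2' e2 h0).1
  refine ⟨μ, j, hμ, ⟨v, h0, by rw [ZMod.val_one, pow_one, e1], by rw [ZMod.val_natCast_of_lt hj, e2]⟩, fun e e' => n ?_⟩
  have : j = 0 := by rw [← ZMod.val_natCast_of_lt hj, e', ZMod.val_zero]
  simp [e, e2, this]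

end lin

variable {K V H Ω : Type*} [Field K] [AddCommGroup V] [Module K V] [Group H] [Fintype Ω] [DecidableEq Ω]

/-- a central extension of `A_Ω` by a group of exponent 2 acting by signs -/
structure Cfg (π : H →* Perm Ω) (ρ : H →* End K V) : Prop where
  rng : π.range = alternatingGroup Ω
  cen : ∀ z, π z = 1 → z ∈ center H
  sq : ∀ z, π z = 1 → z ^ 2 = 1
  sgn : ∀ z, π z = 1 → ρ z = 1 ∨ ρ z = -1

/-- odd order -/
def Od (c : H) : Prop := ∃ m, Odd m ∧ c ^ m = 1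

theorem Od.pow {c : H} (h : Od c) (a : ℕ) : Od (c ^ a) := by
  obtain ⟨m, h1, h2⟩ := h
  exact ⟨m, h1, by rw [pow_right_comm, h2, one_pow]⟩

theorem Od.conj {c : H} (h : Od c) (g : H) : Od (g * c * g⁻¹) := by
  obtain ⟨m, h1, h2⟩ := h
  exact ⟨m, h1, by rw [conj_pow, h2, mul_one, mul_inv_cancel]⟩

theorem Od.map {H' : Type*} [Group H'] {c : H} (h : Od c) (f : H →* H') : Od (f c) := by
  obtain ⟨m, h1, h2⟩ := h
  exact ⟨m, h1, by rw [← map_pow, h2, map_one]⟩

variable {π : H →* Perm Ω} {ρ : H →* End K V}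

theorem Cfg.lift (C : Cfg π ρ) {σ : Perm Ω} (h : sign σ = 1) : ∃ g, π g = σ := C.rng.ge (mem_alternatingGroup.2 h)

theorem Cfg.sign (C : Cfg π ρ) (g : H) : sign (π g) = 1 := mem_alternatingGroup.1 (C.rng.le ⟨g, rfl⟩)

theorem Cfg.olift (C : Cfg π ρ) {σ : Perm Ω} {l : ℕ} (hl : Odd l) (h : σ ^ l = 1) : ∃ c, π c = σ ∧ c ^ l = 1 := by
  obtain ⟨g, rfl⟩ := C.lift (σ := σ) (by
    have := congrArg Perm.sign h
    rw [map_pow, map_one] at this
    rcases Int.units_eq_one_or (Perm.sign σ) with e | e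
    · exact e
    · rw [e, hl.neg_one_pow] at this; exact absurd this (by decide))
  have h1 : π (g ^ l) = 1 := by rw [map_pow, h]
  obtain ⟨k, rfl⟩ := hl
  refine ⟨g * g ^ (2 * k + 1), by rw [map_mul, h1, mul_one], ?_⟩
  rw [Commute.mul_pow (Commute.self_pow g _), ← pow_succ', show 2 * k + 1 + 1 = 2 * (k + 1) by ring, pow_mul _ 2, C.sq _ h1,
    one_pow]

theorem Cfg.uniq (C : Cfg π ρ) {c c' : H} (h : Od c) (h' : Od c') (e : π c = π c') : c = c' := by
  obtain ⟨m, h1, h2⟩ := h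
  obtain ⟨m', h1', h2'⟩ := h'
  have hz : π (c⁻¹ * c') = 1 := by simp [e]
  obtain ⟨k, hk⟩ := h1.mul h1'
  have h3 : (c * (c⁻¹ * c')) ^ (m * m') = 1 := by rw [mul_inv_cancel_left, mul_comm m, pow_mul, h2', one_pow]
  rw [Commute.mul_pow (mem_center_iff.1 (C.cen _ hz) c), pow_mul c, h2, one_pow, one_mul, hk, pow_succ, pow_mul,
    C.sq _ hz, one_pow, one_mul] at h3
  exact inv_mul_eq_one.1 h3

theorem Cfg.conj_eq (C : Cfg π ρ) {g c c' : H} (h : Od c) (h' : Od c') (e : π g * π c * (π g)⁻¹ = π c') : g * c * g⁻¹ = c' :=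
  C.uniq (h.conj g) h' (by simp [e])

theorem Cfg.comm (C : Cfg π ρ) {g c : H} (h : Od c) (e : Commute (π g) (π c)) : Commute g c := by
  have := C.conj_eq h h (g := g) (by rw [e.eq, mul_inv_cancel_right])
  exact mul_inv_eq_iff_eq_mul.1 this

theorem Cfg.top_of_od (C : Cfg π ρ) (M : Subgroup H) (h1 : ∀ z, π z = 1 → z ∈ M) (h2 : ∀ c, Od c → c ∈ M) : M = ⊤ := by
  have h3 : π.range ≤ M.map π := by
    rw [C.rng, ← closure_three_cycles_eq_alternating, closure_le]
    intro σ hσ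
    obtain ⟨c, rfl, hc⟩ := C.olift (σ := σ) (l := 3) (by decide) (by rw [← hσ.orderOf, pow_orderOf_eq_one])
    exact ⟨c, h2 c ⟨3, by decide, hc⟩, rfl⟩
  refine eq_top_iff.2 fun g _ => ?_
  obtain ⟨m, hm, e⟩ := h3 ⟨g, rfl⟩
  simpa using mul_mem hm (h1 (m⁻¹ * g) (by simp [e]))

theorem Cfg.gen (C : Cfg π ρ) (h5 : 5 ≤ Fintype.card Ω) {h : H} (h1 : ρ h = 1) (h2 : π h ≠ 1) {c : H} (hc : Od c) : ρ c = 1 := by
  let π' : H →* alternatingGroup Ω := π.codRestrict _ fun g => C.rng.le ⟨g, rfl⟩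
  have hs : Function.Surjective π' := fun σ => by
    obtain ⟨g, hg⟩ := C.rng.ge σ.2
    exact ⟨g, Subtype.ext hg⟩
  have := ρ.normal_ker.map π' hs
  rcases alternatingGroup.normal_subgroup_eq_bot_or_eq_top (N := ρ.ker.map π') (by simpa using h5) with e | e
  · exact absurd (congrArg Subtype.val (mem_bot.1 (e.le ⟨h, h1, rfl⟩))) h2
  · obtain ⟨n, hn, e'⟩ := e.ge (mem_top (π' c))
    have hz : π (n⁻¹ * c) = 1 := by simp [show π n = π c from congrArg Subtype.val e']
    have h3 : (n * (n⁻¹ * c)) ^ 2 = n ^ 2 := by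
      rw [Commute.mul_pow (mem_center_iff.1 (C.cen _ hz) n), C.sq _ hz, mul_one]
    rw [mul_inv_cancel_left] at h3
    obtain ⟨m, ⟨k, rfl⟩, hm⟩ := hc
    have := congrArg ρ hm
    rwa [pow_succ, pow_mul, h3, map_mul, map_pow, map_pow, show ρ n = 1 from hn, one_pow, one_pow, one_mul, map_one] at this

/-- elements moving only points satisfying `q` -/
def sub (π : H →* Perm Ω) (q : Ω → Prop) : Subgroup H where
  carrier := {h | ∀ x, ¬ q x → π h x = x}
  one_mem' := by simp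
  mul_mem' ha hb x hx := by simp [ha x hx, hb x hx]
  inv_mem' {a} ha x hx := by rw [map_inv, Perm.inv_eq_iff_eq, ha x hx]

theorem sub_iff {q : Ω → Prop} {h : H} (hh : h ∈ sub π q) (x : Ω) : q (π h x) ↔ q x :=
  ⟨fun h1 => by_contra fun h2 => h2 (hh x h2 ▸ h1), fun h1 => by_contra fun h2 => h2 (by
    rw [(π h).injective (hh _ h2)]; exact h1)⟩

/-- restriction of `π` -/
def rπ (π : H →* Perm Ω) (q : Ω → Prop) : sub π q →* Perm {x // q x} where
  toFun h := (π h).subtypePerm (sub_iff h.2)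
  map_one' := by ext; simp
  map_mul' a b := Equiv.ext fun x => Subtype.ext (Equiv.congr_fun (π.map_mul a b) x)

/-- restriction of `ρ` -/
def rρ (ρ : H →* End K V) {L : Subgroup H} {W : Submodule K V} (hW : ∀ h ∈ L, ∀ w ∈ W, ρ h w ∈ W) : L →* End K W where
  toFun h := (ρ h).restrict (hW h h.2)
  map_one' := by ext; simp
  map_mul' a b := by ext; simp

theorem rπ_eq_one {q : Ω → Prop} {h : sub π q} : rπ π q h = 1 ↔ π h = 1 := by
  refine ⟨fun e => Equiv.ext fun x => ?_, fun e => by ext; simp [rπ, e]⟩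
  by_cases hx : q x
  · exact congrArg Subtype.val (Equiv.congr_fun e ⟨x, hx⟩)
  · exact h.2 x hx

theorem Cfg.res (C : Cfg π ρ) (q : Ω → Prop) [DecidablePred q] {W : Submodule K V}
    (hW : ∀ h ∈ sub π q, ∀ w ∈ W, ρ h w ∈ W) : Cfg (rπ π q) (rρ ρ hW) where
  rng := by
    refine le_antisymm ?_ fun σ hσ => ?_
    · rintro _ ⟨h, rfl⟩
      exact mem_alternatingGroup.2 ((sign_subtypePerm _ (sub_iff h.2) fun x hx => by_contra fun n => hx (h.2 x n)).trans (C.sign h))
    · obtain ⟨g, hg⟩ := C.lift (σ := ofSubtype σ) (by rw [sign_ofSubtype]; exact mem_alternatingGroup.1 hσ)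
      exact ⟨⟨g, fun x hx => by rw [hg, ofSubtype_apply_of_not_mem _ hx]⟩, by
        ext x; simp [rπ, hg, ofSubtype_apply_of_mem _ x.2]⟩
  cen z hz := mem_center_iff.2 fun g => Subtype.ext (mem_center_iff.1 (C.cen _ (rπ_eq_one.1 hz)) g)
  sq z hz := Subtype.ext (C.sq _ (rπ_eq_one.1 hz))
  sgn z hz := (C.sgn _ (rπ_eq_one.1 hz)).imp (fun e => by ext; simp [rρ, e]) fun e => by ext; simp [rρ, e]

theorem od_sub {L : Subgroup H} {c : H} (hc : c ∈ L) (h : Od c) : Od (⟨c, hc⟩ : L) := by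
  obtain ⟨m, h1, h2⟩ := h
  exact ⟨m, h1, Subtype.ext h2⟩

theorem Cfg.spread (C : Cfg π ρ) (q : Ω → Prop) [DecidablePred q] (h5 : 5 ≤ Fintype.card {x // q x}) {a b : H}
    (ha : ∀ y ∈ sub π q, Commute y a) (hb : b ∈ sub π q) (hb' : π b ≠ 1) (h : (ρ b - 1) * (ρ a - 1) = 0) {y : H}
    (hy : y ∈ sub π q) (ho : Od y) : (ρ y - 1) * (ρ a - 1) = 0 := by
  have hW : ∀ h ∈ sub π q, ∀ w ∈ LinearMap.range (ρ a - 1), ρ h w ∈ LinearMap.range (ρ a - 1) := by
    rintro h hh _ ⟨w, rfl⟩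
    exact ⟨ρ h w, by simp [← End.mul_apply, ← map_mul, (ha h hh).eq]⟩
  have := (C.res q hW).gen h5 (h := ⟨b, hb⟩) (by
    ext ⟨_, w, rfl⟩
    simpa [rρ, sub_eq_zero] using LinearMap.congr_fun h w) (fun e => hb' (rπ_eq_one.1 e)) (od_sub hy ho)
  ext w
  simpa [rρ, sub_eq_zero] using congrArg Subtype.val (LinearMap.congr_fun this ⟨_, w, rfl⟩)

theorem Cfg.fix (C : Cfg π ρ) (hl : ∀ z, π z = 1 → ρ z = 1) (q : Ω → Prop) {u : V} (h : ∀ y ∈ sub π q, Od y → ρ y u = u)
    {y : H} (hy : y ∈ sub π q) : ρ y u = u := by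
  classical
  let M : Subgroup (sub π q) :=
    { carrier := {y | ρ y u = u}
      one_mem' := by simp
      mul_mem' := fun ha hb => by simp_all
      inv_mem' := fun {a} ha => by
        have := inv_app ρ (a : H)⁻¹ u
        rwa [inv_inv, show ρ a u = u from ha] at this }
  exact ((C.res q (W := ⊤) fun _ _ _ _ => trivial).top_of_od M
    (fun z hz => by change ρ z u = u; rw [hl _ (rπ_eq_one.1 hz), End.one_apply])
    fun c hc => h c c.2 (hc.map (sub π q).subtype)).ge (mem_top ⟨y, hy⟩)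

end Cfsg.Agent.AltRep
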