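import Cfsg.Agent.AltRep.A
import Cfsg.Agent.Schur.Alt

/-! Low-dimensional projective representations of alternating groups, part B (helper7): if disjoint 3-cycles satisfy
`[V,x,y] = 0` (`NatH`) then `V` involves the deleted permutation module (`nat_bound`). -/
set_option autoImplicit false
set_option linter.unusedSectionVars false
open Module Equiv Equiv.Perm Subgroup

namespace Cfsg.Agent.AltRep
variable {K V H Ω : Type*} [Field K] [AddCommGroup V] [Module K V] [Group H] [Fintype Ω] [DecidableEq Ω]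
  {π : H →* Perm Ω} {ρ : H →* End K V}

/-- permutations supported on the range of `e` -/
def φ {k : ℕ} (e : Fin k ↪ Ω) : Perm (Fin k) →* Perm Ω := extendDomainHom e.toEquivRange

section
variable {k : ℕ} (e : Fin k ↪ Ω)
theorem φ_app (σ : Perm (Fin k)) (i : Fin k) : φ e σ (e i) = e (σ i) := extendDomain_apply_image σ e.toEquivRange i
theorem φ_out (σ : Perm (Fin k)) {x : Ω} (h : x ∉ Set.range e) : φ e σ x = x := extendDomain_apply_not_subtype σ _ h
theorem φ_sign (σ : Perm (Fin k)) : sign (φ e σ) = sign σ := sign_extendDomain σ _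
theorem φ_ne {σ : Perm (Fin k)} (h : σ ≠ 1) : φ e σ ≠ 1 := fun h' => h (extendDomainHom_injective _ (h'.trans (map_one _).symm))
theorem φ_card (σ : Perm (Fin k)) : (φ e σ).support.card = σ.support.card := by
  rw [φ, extendDomainHom_apply, support_extend_domain, Finset.card_map]
theorem φ_three {σ : Perm (Fin k)} (h : σ.support.card = 3) : (φ e σ).IsThreeCycle :=
  card_support_eq_three_iff.1 ((φ_card e σ).trans h)
theorem φ_sub {h : H} {σ : Perm (Fin k)} (hh : π h = φ e σ) {q : Ω → Prop} (hq : ∀ i, σ i ≠ i → q (e i)) : h ∈ sub π q :=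
  fun x hx => by
    rw [hh]
    by_cases h1 : x ∈ Set.range e
    · obtain ⟨i, rfl⟩ := h1
      rw [φ_app, show σ i = i from by_contra fun n => hx (hq i n)]
    · exact φ_out e σ h1
theorem φ_fix {h c : H} {σ τ : Perm (Fin k)} (hh : π h = φ e σ) (hc : π c = φ e τ) (hq : ∀ i, σ i ≠ i → τ i = i) :
    h ∈ sub π (fun x => π c x = x) := φ_sub e hh fun i n => by rw [hc, φ_app, hq i n]
theorem Cfg.φlift (C : Cfg π ρ) (σ : Perm (Fin k)) (h : Perm.sign σ = 1) : ∃ g, π g = φ e σ := C.lift ((φ_sign e σ).trans h)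
theorem Cfg.φolift (C : Cfg π ρ) (σ : Perm (Fin k)) (l : ℕ) (hl : Odd l) (h : σ ^ l = 1) : ∃ c, π c = φ e σ ∧ c ^ l = 1 ∧ Od c := by
  obtain ⟨c, h1, h2⟩ := C.olift (σ := φ e σ) hl (by rw [← map_pow, h, map_one])
  exact ⟨c, h1, h2, l, hl, h2⟩
theorem Cfg.φconj (C : Cfg π ρ) {g c c' : H} {γ σ τ : Perm (Fin k)} (hg : π g = φ e γ) (hc : π c = φ e σ) (hc' : π c' = φ e τ)
    (h : Od c) (h' : Od c') (a : ℕ) (hh : γ * σ * γ⁻¹ = τ ^ a) : g * c * g⁻¹ = c' ^ a :=
  C.conj_eq h (h'.pow a) (by rw [map_pow, hg, hc, hc', ← map_pow, ← hh]; simp)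
end

theorem card_fix (σ : Perm Ω) : Fintype.card {x // σ x = x} = Fintype.card Ω - σ.support.card := by
  rw [Fintype.card_subtype, ← Finset.card_compl]
  congr 1; ext; simp

theorem Cfg.comm_fix (C : Cfg π ρ) {c : H} (h : Od c) : ∀ y ∈ sub π (fun x => π c x = x), Commute y c := fun y hy =>
  C.comm h (Disjoint.commute fun x => (em (π c x = x)).symm.imp_left (hy x))

theorem z_symm {a b : H} (h : Commute a b) (e : (ρ a - 1) * (ρ b - 1) = 0) : (ρ b - 1) * (ρ a - 1) = 0 := by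
  rw [← e]; exact (((h.map ρ).sub_left (Commute.one_left _)).sub_right (Commute.one_right _)).eq.symm

theorem conj_fix {g c c' y : H} {a : ℕ} (h : g * c * g⁻¹ = c' ^ a) (hy : y ∈ sub π (fun x => π c' x = x)) :
    g⁻¹ * y * g ∈ sub π (fun x => π c x = x) := fun x hx => by
  have : π y (π g x) = π g x := hy _ fun e => hx ((π g).injective (by
    have := congrArg (fun z => π z (π g x)) h
    simpa [pow_apply_eq_self_of_apply_eq_self e] using this))
  simp [this]

/-- disjoint 3-cycles satisfy `[V,x,y] = 0` -/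
def NatH (π : H →* Perm Ω) (ρ : H →* End K V) : Prop :=
  ∀ x y, Od x → Od y → (π x).IsThreeCycle → y ∈ sub π (fun w => π x w = w) → (ρ y - 1) * (ρ x - 1) = 0

theorem Cfg.toNat (C : Cfg π ρ) (h8 : 8 ≤ Fintype.card Ω) {x b : H} (hx : Od x) (h3 : (π x).IsThreeCycle)
    (hb : b ∈ sub π (fun w => π x w = w)) (hb' : π b ≠ 1) (h : (ρ b - 1) * (ρ x - 1) = 0) : NatH π ρ := by
  intro x' y hx' hy h3' hy'
  obtain ⟨⟨σ, hσ⟩, e⟩ := isConj_iff.1 (alternatingGroup.isThreeCycle_isConj (by rw [Nat.card_eq_fintype_card]; omega)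
    (σ := ⟨_, h3.mem_alternatingGroup⟩) (τ := ⟨_, h3'.mem_alternatingGroup⟩) h3 h3')
  obtain ⟨g, rfl⟩ := C.rng.ge hσ
  have e' := C.conj_eq hx hx' (g := g) (congrArg Subtype.val e)
  have := C.spread _ (by rw [card_fix, h3.card_support]; omega) (C.comm_fix hx) hb hb' h
    (conj_fix (e'.trans (pow_one _).symm) hy') (by simpa using hy.conj g⁻¹)
  have h1 : ρ g * ρ g⁻¹ = 1 := by rw [← map_mul, mul_inv_cancel, map_one]
  have h2 : ρ g⁻¹ * ρ g = 1 := by rw [← map_mul, inv_mul_cancel, map_one]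
  calc _ = ρ g * ((ρ (g⁻¹ * y * g) - 1) * (ρ x - 1)) * ρ g⁻¹ := by
        simp only [← e', map_mul, mul_sub, sub_mul, mul_one, one_mul, ← mul_assoc, h1]
        simp only [mul_assoc, h1, mul_one]
    _ = 0 := by rw [this, mul_zero, zero_mul]

theorem exists_even (s : Finset Ω) {a b : Ω} (ha : a ∉ s) (hb : b ∉ s) (h : s.card + 3 ≤ Fintype.card Ω) :
    ∃ σ : Perm Ω, sign σ = 1 ∧ (∀ x ∈ s, σ x = x) ∧ σ a = b := by
  by_cases e : a = b
  · exact ⟨1, by simp, by simp, e⟩
  obtain ⟨m, hm⟩ : ∃ m, m ∉ insert a (insert b s) := by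
    by_contra! h'
    have := Finset.card_le_univ (insert a (insert b s))
    have := Finset.card_insert_le a (insert b s)
    have := Finset.card_insert_le b s
    have := Finset.card_le_card (show Finset.univ ⊆ insert a (insert b s) from fun x _ => h' x)
    rw [Finset.card_univ] at this; omega
  simp only [Finset.mem_insert, not_or] at hm
  refine ⟨swap a m * swap a b, by simp [e, Ne.symm hm.1], fun x hx => ?_, by
    simp [swap_apply_of_ne_of_ne (Ne.symm e) (Ne.symm hm.2.1)]⟩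
  have h1 : x ≠ a := fun e => ha (e ▸ hx)
  have h2 : x ≠ b := fun e => hb (e ▸ hx)
  have h3 : x ≠ m := fun e => hm.2.2 (e ▸ hx)
  simp [swap_apply_of_ne_of_ne, h1, h2, h3]

theorem exists_even3 (h5 : 5 ≤ Fintype.card Ω) {a b c a' b' c' : Ω} (h1 : a ≠ b) (h2 : a ≠ c) (h3 : b ≠ c) (h1' : a' ≠ b')
    (h2' : a' ≠ c') (h3' : b' ≠ c') : ∃ σ : Perm Ω, sign σ = 1 ∧ σ a = a' ∧ σ b = b' ∧ σ c = c' := by
  obtain ⟨σ, s1, -, e1⟩ := exists_even ∅ (a := a) (b := a') (by simp) (by simp) (by simp; omega)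
  obtain ⟨τ, s2, f2, e2⟩ := exists_even {a'} (a := σ b) (b := b') (by simp [← e1, h1.symm]) (by simp [h1'.symm])
    (by simp; omega)
  obtain ⟨υ, s3, f3, e3⟩ := exists_even {a', b'} (a := τ (σ c)) (b := c') (by
    simp only [Finset.mem_insert, Finset.mem_singleton, not_or]
    exact ⟨fun e => h2 (σ.injective (τ.injective (by rw [e, e1, f2 a' (by simp)]))),
      fun e => h3 (σ.injective (τ.injective (by rw [e, e2])))⟩) (by simp [h2'.symm, h3'.symm])
    (by rw [Finset.card_pair h1']; omega)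
  exact ⟨υ * τ * σ, by simp [s1, s2, s3], by simp [e1, f2, f3], by simp [e2, f3], by simp [e3]⟩

theorem perm_bound [FiniteDimensional K V] (p : ℕ) [CharP K p] (h5 : 5 ≤ Fintype.card Ω) (E : Ω → V) (hE : Function.Injective E)
    (hL : ∀ σ : Perm Ω, sign σ = 1 → ∃ L : End K V, ∀ a b, L (E a - E b) = E (σ a) - E (σ b)) :
    Fintype.card Ω - 1 - (if p ∣ Fintype.card Ω then 1 else 0) ≤ finrank K V := by
  obtain ⟨o⟩ : Nonempty Ω := Fintype.card_pos_iff.1 (by omega)
  let S : (Ω → K) →ₗ[K] K := ∑ i, LinearMap.proj i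
  let Φ : (Ω → K) →ₗ[K] V := Fintype.linearCombination K E
  have hS : ∀ f, S f = ∑ i, f i := fun f => by simp [S]
  have key : ∀ f : Ω → K, ∑ i, f i = 0 → ∑ i, f i • E i = 0 → ∀ b c, f b = f c := fun f h1 h2 b c => by
    have hD : ∀ σ : Perm Ω, sign σ = 1 → ∑ i, f i • E (σ i) = 0 := fun σ hσ => by
      obtain ⟨L, hL⟩ := hL σ hσ
      have h3 : ∀ F : Ω → V, ∑ i, f i • (F i - F o) = ∑ i, f i • F i := fun F => by
        simp only [smul_sub, Finset.sum_sub_distrib, ← Finset.sum_smul, h1, zero_smul, sub_zero]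
      rw [← h3 fun i => E (σ i)]
      simp only [← hL, ← map_smul, ← map_sum, h3 E, h2, map_zero]
    by_contra n
    have n' : b ≠ c := fun e => n (e ▸ rfl)
    obtain ⟨a, ha⟩ : ∃ a, a ∉ ({b, c} : Finset Ω) := by
      by_contra! h'
      have := Finset.card_le_card (show Finset.univ ⊆ {b, c} from fun x _ => h' x)
      rw [Finset.card_univ, Finset.card_pair n'] at this; omega
    obtain ⟨d, hd⟩ : ∃ d, d ∉ insert a ({b, c} : Finset Ω) := by
      by_contra! h'
      have := Finset.card_le_card (show Finset.univ ⊆ insert a {b, c} from fun x _ => h' x)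
      rw [Finset.card_univ, Finset.card_insert_of_notMem ha, Finset.card_pair n'] at this; omega
    simp only [Finset.mem_insert, Finset.mem_singleton, not_or] at ha hd
    obtain ⟨δ, s1, d1, d2, d3⟩ := exists_even3 h5 ha.1 ha.2 n' ha.1 (Ne.symm hd.1) (Ne.symm hd.2.1)
    have g1 : (swap a c * swap a b) a = b := by simp [swap_apply_of_ne_of_ne (Ne.symm ha.1) n']
    have g2 : (swap a c * swap a b) b = c := by simp
    have g3 : (swap a c * swap a b) c = a := by simp [swap_apply_of_ne_of_ne (Ne.symm ha.2) n'.symm]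
    have g4 : ∀ x, x ≠ a → x ≠ b → x ≠ c → (swap a c * swap a b) x = x := fun x h1 h2 h3 => by
      simp [swap_apply_of_ne_of_ne, h1, h2, h3]
    have s2 : sign (swap a c * swap a b) = 1 := by simp [ha.1, ha.2]
    generalize swap a c * swap a b = γ at *
    have h4 : ∑ i, f i • (E (δ (γ i)) - E (δ i) - E (γ i) + E i) = 0 := by
      have := hD (δ * γ) (by simp [s1, s2])
      simp only [Perm.mul_apply] at this
      simp only [smul_add, smul_sub, Finset.sum_add_distrib, Finset.sum_sub_distrib, this, hD δ s1, hD γ s2, h2]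
      simp
    rw [Finset.sum_eq_add b c n' (fun i _ hi => by
      by_cases e : i = a
      · simp [e, g1, d1, d2]
      · simp [g4 i e hi.1 hi.2]) (by simp) (by simp), g2, g3, d1, d2, d3] at h4
    have h5 : (f b - f c) • (E d - E c) = 0 := by rw [← h4]; module
    exact hd.2.2 (hE (sub_eq_zero.1 ((smul_eq_zero.1 h5).resolve_left (sub_ne_zero.2 n))))
  have r1 := LinearMap.finrank_range_add_finrank_ker S
  have r2 := LinearMap.finrank_range_add_finrank_ker (Φ.comp (LinearMap.ker S).subtype)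
  have r3 := (LinearMap.range S).finrank_le
  have r4 := (LinearMap.range (Φ.comp (LinearMap.ker S).subtype)).finrank_le
  rw [finrank_self] at r3
  rw [finrank_fintype_fun_eq_card] at r1
  have kc : ∀ f : LinearMap.ker (Φ.comp (LinearMap.ker S).subtype), ∀ b c, f.1.1 b = f.1.1 c := fun f =>
    key _ ((hS _).symm.trans f.1.2) ((Fintype.linearCombination_apply K E f.1.1).symm.trans (LinearMap.mem_ker.1 f.2))
  split_ifs with hp
  · have := LinearMap.finrank_le_finrank_of_injective (f := (LinearMap.proj (R := K) (φ := fun _ => K) o).comp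
      ((LinearMap.ker S).subtype.comp (LinearMap.ker (Φ.comp (LinearMap.ker S).subtype)).subtype)) fun f g e =>
        Subtype.ext (Subtype.ext (funext fun i => by rw [kc f i o, kc g i o]; exact e))
    rw [finrank_self] at this
    omega
  · have : LinearMap.ker (Φ.comp (LinearMap.ker S).subtype) = ⊥ := eq_bot_iff.2 fun f hf => Subtype.ext (funext fun i => by
      have h1 := (hS _).symm.trans f.2
      rw [Finset.sum_congr rfl fun j _ => kc ⟨f, hf⟩ j i, Finset.sum_const, Finset.card_univ, nsmul_eq_mul] at h1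
      exact (mul_eq_zero.1 h1).resolve_left fun e => hp ((CharP.cast_eq_zero_iff K p _).1 e))
    rw [this, finrank_bot] at r2
    omega

theorem quad_aux {R : Type*} [Ring R] {A B : R} (hA : A * A = 0) (hB : B * B = 0)
    (h : (1 + A) * (1 + B) * ((1 + A) * (1 + B)) = 1) (h2 : ∀ x : R, 2 * x = 0 → x = 0) : (1 + A) * (1 + B) = 1 := by
  have hA' : ∀ x, A * (A * x) = 0 := fun x => by rw [← mul_assoc, hA, zero_mul]
  have hB' : ∀ x, B * (B * x) = 0 := fun x => by rw [← mul_assoc, hB, zero_mul]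
  have e : (1 + A) * (1 + B) = (1 - B) * (1 - A) := by
    calc _ = (1 + A) * (1 + B) * ((1 + A) * (1 + B)) * ((1 - B) * (1 - A)) := by
          simp only [mul_add, add_mul, mul_sub, sub_mul, mul_assoc, hA, hB, hA', hB', mul_one, one_mul, mul_zero, zero_mul]; abel
      _ = _ := by rw [h, one_mul]
  have e1 : 2 * (A + B) = B * A - A * B := by
    rw [← sub_eq_zero, ← sub_eq_zero.2 e]; noncomm_ring
  have e2 : 2 * (A * B) = A * (B * A) := by
    have := congrArg (A * ·) e1
    simp only [two_mul, mul_add, mul_sub, hA, hA', zero_add, sub_zero] at this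
    rw [two_mul, this]
  have e3 : 2 * (B * A) = -(A * (B * A)) := by
    have := congrArg (· * A) e1
    simp only [two_mul, add_mul, sub_mul, hA, mul_assoc, zero_add, mul_zero, zero_sub] at this
    rw [two_mul, this]
  have e4 : A * B + B * A = 0 := h2 _ (by rw [mul_add, e2, e3, add_neg_cancel])
  have e5 : A + B + A * B = 0 := h2 _ (by rw [mul_add 2 (A + B), e1, ← e4]; noncomm_ring)
  rw [← sub_eq_zero, ← e5]; noncomm_ring

theorem nat_lin [FiniteDimensional K V] (p : ℕ) [CharP K p] (C : Cfg π ρ) (h8 : 8 ≤ Fintype.card Ω)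
    (hl : ∀ z, π z = 1 → ρ z = 1) (hN : NatH π ρ) (hn : ∃ h, Od h ∧ ρ h ≠ 1) :
    Fintype.card Ω - 1 - (if p ∣ Fintype.card Ω then 1 else 0) ≤ finrank K V := by
  obtain ⟨e⟩ : Nonempty (Fin 8 ↪ Ω) := Function.Embedding.nonempty_of_card_le (by simpa using h8)
  have nt : ∀ h, π h ≠ 1 → ρ h ≠ 1 := fun h h1 h2 => by
    obtain ⟨c, hc, n⟩ := hn
    exact n (C.gen (by omega) h2 h1 hc)
  have eq : ∀ h h', π h = π h' → ρ h = ρ h' := fun h h' e => by
    rw [← mul_inv_cancel_left h h', map_mul, hl (h⁻¹ * h') (by simp [e]), mul_one]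
  obtain ⟨s, s1, s2, s3⟩ := C.φolift e (swap 0 4 * swap 0 1) 3 (by decide) (by decide)
  obtain ⟨y, y1, y2, y3⟩ := C.φolift e (swap 0 2 * swap 0 1) 3 (by decide) (by decide)
  obtain ⟨y', y1', -, y3'⟩ := C.φolift e (swap 0 2 * swap 0 3) 3 (by decide) (by decide)
  obtain ⟨y0, z1, -, z3⟩ := C.φolift e (swap 4 6 * swap 4 5) 3 (by decide) (by decide)
  obtain ⟨g, g1⟩ := C.φlift e (swap 2 4 * swap 5 6) (by decide)
  have t1 : π (y' * y) = φ e (swap 0 1 * swap 2 3) := by rw [map_mul, y1, y1', ← map_mul]; congr 1; decide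
  have hs3 : ρ s ^ 3 = 1 := by rw [← map_pow, s2, map_one]
  have q1 : (ρ s - 1) * (ρ s - 1) ≠ 0 := fun h => by
    by_cases h2 : (2 : K) = 0
    · refine nt s (s1 ▸ φ_ne e (by decide)) ?_
      have h3 : (2 : End K V) = 0 := by rw [← map_ofNat (algebraMap K (End K V)) 2, h2, map_zero]
      calc ρ s = ρ s ^ 3 - ρ s * ((ρ s - 1) * (ρ s - 1)) - 2 * (ρ s * (ρ s - 1)) := by noncomm_ring
        _ = 1 := by rw [h, h3, hs3]; simp
    · have e1 := C.φconj e g1 s1 y1 s3 y3 1 (by decide)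
      have h1 : ρ g * ρ g⁻¹ = 1 := by rw [← map_mul, mul_inv_cancel, map_one]
      have h1' : ρ g⁻¹ * ρ g = 1 := by rw [← map_mul, inv_mul_cancel, map_one]
      have h3 : ρ y - 1 = ρ g * (ρ s - 1) * ρ g⁻¹ := by rw [← pow_one y, ← e1, mul_sub, sub_mul, mul_one, h1]; simp
      have := quad_aux h (B := ρ y - 1) (by
        rw [h3, mul_assoc, ← mul_assoc (ρ g⁻¹), ← mul_assoc (ρ g⁻¹), h1', one_mul, mul_assoc, ← mul_assoc (ρ s - 1), h]; simp)
        (by
          simp only [add_sub_cancel, ← map_mul]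
          exact hl _ (by simp only [map_mul π, s1, y1, ← map_mul (φ e)]; rw [← map_one (φ e)]; congr 1; decide))
        fun x hx => (smul_eq_zero.1 (show (2 : K) • x = 0 by rw [two_smul, ← two_mul, hx])).resolve_left h2
      simp only [add_sub_cancel, ← map_mul] at this
      exact nt _ (by rw [map_mul π, s1, y1, ← map_mul]; exact φ_ne e (by decide)) this
  have ts : ρ (y' * y) * ρ s = ρ s ^ 2 * ρ (y' * y) := by
    rw [← map_pow, ← C.φconj e t1 s1 s1 s3 s3 2 (by decide), ← map_mul, ← map_mul, inv_mul_cancel_right]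
  have tt : ρ (y' * y) * ρ (y' * y) = 1 := by
    rw [← map_mul]; exact hl _ (by rw [map_mul π, t1, ← map_mul, ← map_one (φ e)]; congr 1; decide)
  obtain ⟨v, hv⟩ : ∃ v, ((ρ (y' * y) - 1) * (ρ s - 1)) v ≠ 0 := by
    by_contra! h
    have h : (ρ (y' * y) - 1) * (ρ s - 1) = 0 := LinearMap.ext h
    apply q1
    calc _ = ρ s ^ 2 * (ρ s * ((ρ s - 1) * (ρ s - 1))) := by rw [← mul_assoc, ← pow_succ, hs3, one_mul]
      _ = ρ s ^ 2 * ((ρ (y' * y) - 1) * (ρ s - 1) * ρ s - ρ s ^ 2 * ((ρ (y' * y) - 1) * (ρ s - 1)) +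
          (ρ s ^ 2 * ρ (y' * y) - ρ (y' * y) * ρ s) * (ρ s - 1)) := by noncomm_ring
      _ = 0 := by rw [h, ts]; simp
  have us : (ρ (y' * y) - 1) * (ρ s - 1) = (ρ s - 1) * ((ρ s + 1) * ρ (y' * y) - 1) := by
    rw [sub_mul, mul_sub (ρ (y' * y)), ts]; noncomm_ring
  generalize hu : ((ρ (y' * y) - 1) * (ρ s - 1)) v = u at hv
  have u1 : ρ (y' * y) u = -u := by
    rw [← hu, ← End.mul_apply, ← mul_assoc, mul_sub _ _ (1 : End K V), mul_sub _ (ρ (y' * y)), tt, ← mul_sub, ← LinearMap.neg_apply, ← neg_mul, neg_sub, mul_one]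
  have u2 : u + ρ s u + ρ (s ^ 2) u = 0 := by
    have : (1 + ρ s + ρ s ^ 2) * (ρ s - 1) = 0 := by rw [← sub_eq_zero.2 hs3]; noncomm_ring
    have := LinearMap.congr_fun this (((ρ s + 1) * ρ (y' * y) - 1) v)
    rw [End.mul_apply, ← End.mul_apply (ρ s - 1), ← us, hu] at this
    simpa using this
  have u3 : ∀ h ∈ sub π (fun w => π s w = w), ρ h u = u := fun h hh => C.fix hl _ (fun b hb ob => by
    have := LinearMap.congr_fun (hN s b s3 ob (s1 ▸ φ_three e (by decide)) hb) (((ρ s + 1) * ρ (y' * y) - 1) v)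
    rw [End.mul_apply, ← End.mul_apply (ρ s - 1), ← us, hu] at this
    simpa [sub_eq_zero] using this) hh
  have u4 : ρ y0 u = u := by
    have a1 := hN y y0 y3 z3 (y1 ▸ φ_three e (by decide)) (φ_fix e z1 y1 (by decide))
    have a2 := hN y' y0 y3' z3 (y1' ▸ φ_three e (by decide)) (φ_fix e z1 y1' (by decide))
    have a3 := (C.comm_fix y3' y0 (φ_fix e z1 y1' (by decide))).map ρ
    have : (ρ y0 - 1) * (ρ (y' * y) - 1) = 0 := by
      calc _ = ρ y' * ((ρ y0 - 1) * (ρ y - 1)) + (ρ y0 - 1) * (ρ y' - 1) + (ρ y0 * ρ y' - ρ y' * ρ y0) * (ρ y - 1) := by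
            rw [map_mul]; noncomm_ring
        _ = 0 := by rw [a1, a2, a3.eq]; simp
    have := LinearMap.congr_fun this ((ρ s - 1) v)
    rw [End.mul_apply, ← End.mul_apply (ρ (y' * y) - 1), hu] at this
    simpa [sub_eq_zero] using this
  have sf : ∀ h, π h (e 0) = e 0 → π h (e 1) = e 1 → π h (e 4) = e 4 → h ∈ sub π (fun w => π s w = w) :=
    fun h h0 h1 h4 w hw => by
      by_cases hr : w ∈ Set.range e
      · obtain ⟨i, rfl⟩ := hr
        simp only [s1, φ_app, e.apply_eq_iff_eq] at hw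
        have : i = 0 ∨ i = 1 ∨ i = 4 := by revert hw i; decide
        rcases this with rfl | rfl | rfl <;> assumption
      · exact absurd (s1 ▸ φ_out e _ hr) hw
  have u5 : ∀ h, π h (e 0) = e 0 → π h (e 1) = e 1 → ρ h u = u := fun h h0 h1 => by
    by_cases h4 : π h (e 4) = e 4
    · exact u3 h (sf h h0 h1 h4)
    obtain ⟨σ, σ1, σ2, σ3⟩ := exists_even {e 0, e 1, e 4} (a := e 5) (b := π h (e 4)) (by simp +decide) (by
      simp only [Finset.mem_insert, Finset.mem_singleton, not_or]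
      exact ⟨by rw [← h0]; simp +decide, by rw [← h1]; simp +decide, h4⟩) ((Nat.add_le_add_right Finset.card_le_three 3).trans
        (by omega))
    obtain ⟨k, rfl⟩ := C.lift σ1
    have k0 := σ2 (e 0) (by simp)
    have k1 := σ2 (e 1) (by simp)
    have hk := u3 k (sf k k0 k1 (σ2 _ (by simp)))
    have := u3 ((k * y0)⁻¹ * h) (sf _ (by
      rw [map_mul, map_inv, Perm.mul_apply, Perm.inv_eq_iff_eq, h0, map_mul, Perm.mul_apply, z1, φ_app]
      exact k0.symm) (by
      rw [map_mul, map_inv, Perm.mul_apply, Perm.inv_eq_iff_eq, h1, map_mul, Perm.mul_apply, z1, φ_app]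
      exact k1.symm) (by
      rw [map_mul, map_inv, Perm.mul_apply, Perm.inv_eq_iff_eq, ← σ3, map_mul, Perm.mul_apply, z1, φ_app]
      rfl))
    rw [← mul_inv_cancel_left (k * y0) h, map_mul, End.mul_apply, this, map_mul, End.mul_apply, u4, hk]
  have u6 : ∀ h h', π h (e 0) = π h' (e 0) → π h (e 1) = π h' (e 1) → ρ h u = ρ h' u := fun h h' h0 h1 => by
    rw [← mul_inv_cancel_left h' h, map_mul, End.mul_apply, u5 (h'⁻¹ * h) (by simp [h0]) (by simp [h1])]
  have ex : ∀ a b c, a ≠ b → a ≠ c → b ≠ c → ∃ h, π h (e 0) = a ∧ π h (e 1) = b ∧ π h (e 4) = c := fun a b c h1 h2 h3 => by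
    obtain ⟨σ, σ1, h⟩ := exists_even3 (a := e 0) (b := e 1) (c := e 4) (by omega) (by simp) (by simp +decide)
      (by simp +decide) h1 h2 h3
    obtain ⟨k, rfl⟩ := C.lift σ1
    exact ⟨k, h⟩
  have ex2 : ∀ a b, a ≠ b → ∃ h, π h (e 0) = a ∧ π h (e 1) = b := fun a b h1 => by
    obtain ⟨c, hc⟩ : ∃ c, c ∉ ({a, b} : Finset Ω) := by
      by_contra! h'
      have := Finset.card_le_card (show Finset.univ ⊆ {a, b} from fun x _ => h' x)
      rw [Finset.card_univ, Finset.card_pair h1] at this; omega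
    simp only [Finset.mem_insert, Finset.mem_singleton, not_or] at hc
    obtain ⟨h, h0, h1, -⟩ := ex a b c h1 (Ne.symm hc.1) (Ne.symm hc.2)
    exact ⟨h, h0, h1⟩
  choose! G G0 G1 using ex2
  let E : Ω → V := fun a => if a = e 0 then 0 else ρ (G a (e 0)) u
  have sw : ∀ h h', π h (e 0) = π h' (e 1) → π h (e 1) = π h' (e 0) → ρ h u = -ρ h' u := fun h h' h0 h1 => by
    rw [u6 h (h' * (y' * y)) (by rw [map_mul π h', t1, Perm.mul_apply, φ_app, h0]; rfl)
      (by rw [map_mul π h', t1, Perm.mul_apply, φ_app, h1]; rfl), map_mul ρ h', End.mul_apply, u1, map_neg]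
  have hE : ∀ h, ρ h u = E (π h (e 0)) - E (π h (e 1)) := fun h => by
    have n : π h (e 0) ≠ π h (e 1) := by simp
    by_cases h0 : π h (e 0) = e 0
    · rw [h0] at n
      simp only [E, h0, if_true, if_neg n.symm, zero_sub]
      exact sw _ _ (by rw [G1 _ _ n.symm, h0]) (by rw [G0 _ _ n.symm])
    by_cases h1 : π h (e 1) = e 0
    · simp only [E, h1, if_true, if_neg h0, sub_zero]
      exact u6 _ _ (G0 _ _ h0).symm (by rw [G1 _ _ h0, h1])
    obtain ⟨k, k0, k1, k4⟩ := ex _ _ (e 0) n h0 h1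
    have := congrArg (ρ k) u2
    rw [map_add, map_add, map_zero, ← End.mul_apply _ (ρ s), ← End.mul_apply _ (ρ (s ^ 2)), ← map_mul, ← map_mul,
      u6 k h k0 k1, u6 (k * s) (G (π h (e 1)) (e 0)) (by rw [G0 _ _ h1, map_mul, s1, Perm.mul_apply, φ_app, ← k1]; rfl)
        (by rw [G1 _ _ h1, map_mul, s1, Perm.mul_apply, φ_app, ← k4]; rfl),
      sw (k * s ^ 2) (G (π h (e 0)) (e 0))
        (by rw [G1 _ _ h0, map_mul, map_pow, s1, ← map_pow, Perm.mul_apply, φ_app, ← k4]; rfl)
        (by rw [G0 _ _ h0, map_mul, map_pow, s1, ← map_pow, Perm.mul_apply, φ_app, ← k0]; rfl)] at this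
    simp only [E, if_neg h0, if_neg h1]
    rw [← sub_eq_zero, ← this]; abel
  refine perm_bound p (by omega) E (fun a b h => by_contra fun n => app_ne ρ (G a b) hv ?_) fun σ hσ => ?_
  · rw [hE, G0 _ _ n, G1 _ _ n, h, sub_self]
  · obtain ⟨k, rfl⟩ := C.lift hσ
    refine ⟨ρ k, fun a b => ?_⟩
    by_cases n : a = b
    · simp [n]
    · have := hE (k * G a b)
      rwa [map_mul, End.mul_apply, hE, map_mul, Perm.mul_apply, Perm.mul_apply, G0 _ _ n, G1 _ _ n] at this

end Cfsg.Agent.AltRep
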