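import Cfsg.Agent.AltRep.B

/-! Low-dimensional projective representations of alternating groups, part C (helper7): `proj_bound`: a nontrivial
projective representation (signs as cocycle values) of `A_r`, `r ≥ 9`, in characteristic `p` has degree at least
`r - 1 - [p ∣ r]` (Wagner). -/
set_option autoImplicit false
set_option linter.unusedSectionVars false
open Module Equiv Equiv.Perm Subgroup

namespace Cfsg.Agent.AltRep
universe u v
variable {K : Type*} {V : Type v} {H : Type u} {Ω : Type} [Field K] [AddCommGroup V] [Module K V] [Group H] [Fintype Ω]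
  [DecidableEq Ω] {π : H →* Perm Ω} {ρ : H →* End K V} [FiniteDimensional K V] [Finite H]

theorem neg_one_ne {A : End K V} {w : V} (h0 : w ≠ 0) (h : A = 1 ∨ A = -1) (hw : A w = w) : A = 1 := by
  refine h.elim id fun e => ?_
  rw [e, LinearMap.neg_apply, End.one_apply, neg_eq_iff_add_eq_zero, ← two_smul K, smul_eq_zero] at hw
  rw [e, neg_eq_iff_add_eq_zero, ← two_smul K, hw.resolve_right h0, zero_smul]

theorem φ_swap {k : ℕ} (e : Fin k ↪ Ω) (i j : Fin k) : φ e (swap i j) = swap (e i) (e j) := Equiv.ext fun x => by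
  by_cases h : x ∈ Set.range e
  · obtain ⟨a, rfl⟩ := h
    rw [φ_app, e.injective.swap_apply]
  · rw [φ_out e _ h, swap_apply_of_ne_of_ne (fun n => h ⟨i, n.symm⟩) fun n => h ⟨j, n.symm⟩]

theorem orb3 : ∀ j : ZMod 3, 4 ≤ (Finset.univ.image fun n : Fin 4 =>
    (fun z : ZMod 3 × ZMod 3 => (((2 : ℕ) : ZMod 3) * z.2, z.1))^[n] (1, j)).card := by decide

theorem orb5 : ∀ j : ZMod 5, j ≠ 0 → ∀ z ∈ (Finset.univ.erase (0 : ZMod 5)) ×ˢ (Finset.univ.erase (0 : ZMod 5)),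
    ∃ n : Fin 8, z = (fun z : ZMod 5 × ZMod 5 => (((2 : ℕ) : ZMod 5) * z.2, z.1))^[n] (1, j) ∨
      z = (fun z : ZMod 5 × ZMod 5 => (((2 : ℕ) : ZMod 5) * z.2, z.1))^[n] (((4 : ℕ) : ZMod 5) * 1, j) := by decide

theorem nat_bound (p : ℕ) [CharP K p] (C : Cfg π ρ) (h8 : 8 ≤ Fintype.card Ω) (hN : NatH π ρ) (hn : ∃ h, Od h ∧ ρ h ≠ 1) :
    Fintype.card Ω - 1 - (if p ∣ Fintype.card Ω then 1 else 0) ≤ finrank K V := by
  obtain ⟨e⟩ : Nonempty (Fin 8 ↪ Ω) := Function.Embedding.nonempty_of_card_le (by simpa using h8)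
  have nt : ∀ h, ρ h = 1 → π h = 1 := fun h h2 => by_contra fun h1 => by
    obtain ⟨c, hc, n⟩ := hn
    exact n (C.gen (by omega) h2 h1 hc)
  obtain ⟨y, y1, y2, y3⟩ := C.φolift e (swap 0 2 * swap 0 1) 3 (by decide) (by decide)
  obtain ⟨y', y1', -, y3'⟩ := C.φolift e (swap 0 2 * swap 0 3) 3 (by decide) (by decide)
  obtain ⟨x, x1, -, x3⟩ := C.φolift e (swap 4 6 * swap 4 5) 3 (by decide) (by decide)
  have t1 : π (y' * y) = φ e (swap 0 1 * swap 2 3) := by rw [map_mul, y1, y1', ← map_mul]; congr 1; decide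
  have t2 : ρ ((y' * y) ^ 2) = 1 := by
    obtain ⟨w, hw⟩ : ∃ w, (ρ x - 1) w ≠ 0 := by
      by_contra! h
      exact φ_ne e (by decide) (x1.symm.trans (nt x (sub_eq_zero.1 (LinearMap.ext h))))
    have a1 := LinearMap.congr_fun (hN x y x3 y3 (x1 ▸ φ_three e (by decide)) (φ_fix e y1 x1 (by decide))) w
    have a2 := LinearMap.congr_fun (hN x y' x3 y3' (x1 ▸ φ_three e (by decide)) (φ_fix e y1' x1 (by decide))) w
    rw [End.mul_apply, LinearMap.sub_apply _ 1, End.one_apply, LinearMap.zero_apply, sub_eq_zero] at a1 a2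
    refine neg_one_ne hw (C.sgn _ (by rw [map_pow, t1, ← map_pow, ← map_one (φ e)]; congr 1; decide)) ?_
    simp only [pow_two, map_mul, End.mul_apply, a1, a2]
  let π' : H ⧸ ρ.ker →* Perm Ω := QuotientGroup.lift _ π nt
  let ρ' : H ⧸ ρ.ker →* End K V := QuotientGroup.lift _ ρ fun _ h => h
  have C' : Cfg π' ρ' := by
    refine ⟨?_, fun z => ?_, fun z => ?_, fun z => ?_⟩
    · rw [← C.rng]; ext σ
      exact ⟨fun ⟨z, hz⟩ => by obtain ⟨z, rfl⟩ := QuotientGroup.mk_surjective z; exact ⟨z, hz⟩, fun ⟨z, hz⟩ => ⟨z, hz⟩⟩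
    all_goals obtain ⟨z, rfl⟩ := QuotientGroup.mk_surjective z; intro hz
    · refine mem_center_iff.2 fun g => ?_
      obtain ⟨g, rfl⟩ := QuotientGroup.mk_surjective g
      rw [← QuotientGroup.mk_mul, ← QuotientGroup.mk_mul, mem_center_iff.1 (C.cen z hz)]
    · rw [← QuotientGroup.mk_pow, C.sq z hz, QuotientGroup.mk_one]
    · exact C.sgn z hz
  obtain ⟨L, hL⟩ := Schur.split_of_invol (π := π') (u := e 1) (v := e 3) C'.cen C'.rng C'.sq (i := e 0) (j := e 2)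
    (by simp +decide) (t := (y' * y : H)) (by
      change π _ = _
      rw [t1, map_mul, φ_swap, φ_swap])
    (by rw [← QuotientGroup.mk_pow, QuotientGroup.eq_one_iff]; exact t2)
  have hk : ∀ z : L, π' z = 1 → z = 1 := fun z hz => Subtype.ext (mem_bot.1 (hL.disjoint.le_bot ⟨hz, z.2⟩))
  have dec : ∀ g, ∃ z, π' z = 1 ∧ ∃ l : L, g = z * l := fun g => by
    obtain ⟨⟨z, l⟩, h, -⟩ := hL.existsUnique g
    exact ⟨z, z.2, l, h.symm⟩
  have CL : Cfg (π'.comp L.subtype) (ρ'.comp L.subtype) := by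
    refine ⟨le_antisymm ?_ fun σ hσ => ?_, fun z hz => by rw [hk z hz]; exact one_mem _, fun z hz => by rw [hk z hz, one_pow],
      fun z hz => Or.inl (by rw [hk z hz, map_one])⟩
    · rintro _ ⟨g, rfl⟩; exact C'.rng.le ⟨g, rfl⟩
    · obtain ⟨g, rfl⟩ := C'.rng.ge hσ
      obtain ⟨z, hz, l, rfl⟩ := dec g
      exact ⟨l, by simp [hz]⟩
  have up : ∀ a : L, Od a → ∃ b : H, Od b ∧ (b : H ⧸ ρ.ker) = a := fun a ha => by
    obtain ⟨m, h1, h2⟩ := ha
    obtain ⟨b, hb, hb'⟩ := C.olift (σ := π' a) h1 (by rw [← map_pow, ← L.coe_pow, h2, L.coe_one, map_one])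
    exact ⟨b, ⟨m, h1, hb'⟩, C'.uniq (Od.map ⟨m, h1, hb'⟩ (QuotientGroup.mk' _)) (Od.map ⟨m, h1, h2⟩ L.subtype) hb⟩
  refine nat_lin p CL h8 (fun z hz => by rw [hk z hz, map_one]) (fun a b ha hb h3 hs => ?_) ?_
  · obtain ⟨a', h1, h2⟩ := up a ha
    obtain ⟨b', h1', h2'⟩ := up b hb
    have e1 : π a' = π' a := congrArg π' h2
    have e2 : π b' = π' b := congrArg π' h2'
    have := hN a' b' h1 h1' (e1 ▸ h3) fun w hw => e2 ▸ hs w (e1 ▸ hw)
    rwa [show ρ a' = ρ' a from congrArg ρ' h2, show ρ b' = ρ' b from congrArg ρ' h2'] at this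
  · obtain ⟨h, ⟨m, h1, h2⟩, n⟩ := hn
    obtain ⟨z, hz, l, e1⟩ := dec h
    obtain ⟨l', e2, e3⟩ := CL.olift (σ := π h) h1 (by rw [← map_pow, h2, map_one])
    refine ⟨l', ⟨m, h1, e3⟩, fun e4 => n ?_⟩
    have := C'.uniq (Od.map ⟨m, h1, h2⟩ (QuotientGroup.mk' ρ.ker)) (Od.map ⟨m, h1, e3⟩ L.subtype) e2.symm
    exact (congrArg ρ' this).trans e4

variable [IsAlgClosed K]

theorem bd6 (h3 : ((3 : ℕ) : K) ≠ 0) (C : Cfg π ρ) (h6 : 6 ≤ Fintype.card Ω) (hn : ∃ h, Od h ∧ ρ h ≠ 1) : 4 ≤ finrank K V := by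
  obtain ⟨e⟩ : Nonempty (Fin 6 ↪ Ω) := Function.Embedding.nonempty_of_card_le (by simpa using h6)
  obtain ⟨x, x1, x2, x3⟩ := C.φolift e (swap 0 2 * swap 0 1) 3 (by decide) (by decide)
  obtain ⟨y, y1, y2, y3⟩ := C.φolift e (swap 3 5 * swap 3 4) 3 (by decide) (by decide)
  obtain ⟨g, g1⟩ := C.φlift e (swap 4 5 * (swap 0 3 * swap 1 4 * swap 2 5)) (by decide)
  have := Fact.mk Nat.prime_three
  obtain ⟨μ, j, hμ, hw, -⟩ := exists_wt ρ h3 x2 y2 (C.comm_fix y3 x (φ_fix e x1 y1 (by decide))) (T := 1) fun h => by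
    obtain ⟨c, hc, n⟩ := hn
    exact n (C.gen (by omega) (sub_eq_zero.1 ((one_mul _).symm.trans h)) (x1 ▸ φ_ne e (by decide)) hc)
  have st : ∀ z, Wt ρ 3 x y μ z → Wt ρ 3 x y μ (((2 : ℕ) : ZMod 3) * z.2, z.1) := fun z =>
    Wt.swap ρ hμ.pow_eq_one (C.φconj e g1 x1 y1 x3 y3 2 (by decide)) ((C.φconj e g1 y1 x1 y3 x3 1 (by decide)).trans (pow_one _))
  have := card_le_of_wt ρ hμ (Finset.univ.image fun n : Fin 4 =>
    (fun z : ZMod 3 × ZMod 3 => (((2 : ℕ) : ZMod 3) * z.2, z.1))^[n] (1, j)) fun z hz => by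
    obtain ⟨n, -, rfl⟩ := Finset.mem_image.1 hz
    exact Function.Iterate.rec _ hw st n
  exact (orb3 j).trans this

set_option maxRecDepth 4000 in
theorem bd10 (h5 : ((5 : ℕ) : K) ≠ 0) (C : Cfg π ρ) (h10 : 10 ≤ Fintype.card Ω) : 16 ≤ finrank K V ∨ NatH π ρ := by
  obtain ⟨e⟩ : Nonempty (Fin 10 ↪ Ω) := Function.Embedding.nonempty_of_card_le (by simpa using h10)
  obtain ⟨x, x1, x2, x3⟩ := C.φolift e (swap 0 4 * swap 0 3 * swap 0 2 * swap 0 1) 5 (by decide) (by decide)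
  obtain ⟨y, y1, y2, y3⟩ := C.φolift e (swap 5 9 * swap 5 8 * swap 5 7 * swap 5 6) 5 (by decide) (by decide)
  obtain ⟨a, a1, -, a3⟩ := C.φolift e (swap 5 7 * swap 5 6) 3 (by decide) (by decide)
  by_cases h : (ρ y - 1) * (ρ x - 1) = 0
  · have := C.spread _ (by rw [card_fix, x1, φ_card, show (Perm.support (swap 0 4 * swap 0 3 * swap 0 2 * swap 0 1 : Perm (Fin 10))).card = 5 by decide]; omega)
      (C.comm_fix x3) (φ_fix e y1 x1 (by decide)) (y1 ▸ φ_ne e (by decide)) h (φ_fix e a1 x1 (by decide)) a3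
    exact Or.inr (C.toNat (by omega) a3 (a1 ▸ φ_three e (by decide)) (φ_fix e x1 a1 (by decide)) (x1 ▸ φ_ne e (by decide))
      (z_symm (C.comm_fix x3 a (φ_fix e a1 x1 (by decide))) this))
  obtain ⟨g, g1⟩ := C.φlift e (swap 6 8 * swap 6 9 * swap 6 7 * (swap 0 5 * swap 1 6 * swap 2 7 * swap 3 8 * swap 4 9))
    (by decide)
  obtain ⟨k, k1⟩ := C.φlift e (swap 1 4 * swap 2 3) (by decide)
  have := Fact.mk Nat.prime_five
  obtain ⟨μ, j, hμ, hw, hj⟩ := exists_wt ρ h5 x2 y2 (C.comm_fix y3 x (φ_fix e x1 y1 (by decide))) h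
  have st : ∀ z, Wt ρ 5 x y μ z → Wt ρ 5 x y μ (((2 : ℕ) : ZMod 5) * z.2, z.1) := fun z =>
    Wt.swap ρ hμ.pow_eq_one (C.φconj e g1 x1 y1 x3 y3 2 (by decide)) ((C.φconj e g1 y1 x1 y3 x3 1 (by decide)).trans (pow_one _))
  have hw' := Wt.left ρ hμ.pow_eq_one (C.φconj e k1 x1 x1 x3 x3 4 (by decide))
    ((C.φconj e k1 y1 y1 y3 y3 1 (by decide)).trans (pow_one _)) hw
  have := card_le_of_wt ρ hμ ((Finset.univ.erase 0) ×ˢ (Finset.univ.erase 0)) fun z hz => by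
    obtain ⟨n, h | h⟩ := orb5 j (hj rfl) z hz
    · rw [h]; exact Function.Iterate.rec _ hw st n
    · rw [h]; exact Function.Iterate.rec _ hw' st n
  exact Or.inl this

theorem eig_inv {c : H} (μ : K) {L : Subgroup H} (h : ∀ y ∈ L, Commute y c) :
    ∀ y ∈ L, ∀ w ∈ (ρ c).eigenspace μ, ρ y w ∈ (ρ c).eigenspace μ := fun y hy w hw => by
  rw [End.mem_eigenspace_iff] at hw ⊢
  rw [← End.mul_apply, ← map_mul, ← (h y hy).eq, map_mul, End.mul_apply, hw, map_smul]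

/-- dichotomy with the odd-order elements off the support of `c` -/
theorem dich_odd (C : Cfg π ρ) (h8 : 8 ≤ Fintype.card Ω) {k l a d : ℕ} (e : Fin k ↪ Ω) {σ γ τ : Perm (Fin k)} (hl : l.Prime) (ho : Odd l)
    (hK : (l : K) ≠ 0) (h1 : σ ^ l = 1) (h2 : sign γ = 1) (h3 : γ * σ * γ⁻¹ = σ ^ a) (ha : ∀ j < l, 0 < j → ∃ i < l, a ^ i % l = j)
    (h4 : τ ^ 3 = 1) (h5 : τ.support.card = 3) (h6 : ∀ i, τ i ≠ i → σ i = i) (h7 : σ.support.card = l)
    (hd : ∀ (H' : Type u) [Group H'] [Finite H'] (Ω' : Type) [Fintype Ω'] [DecidableEq Ω'] (W : Type v) [AddCommGroup W] [Module K W]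
      [FiniteDimensional K W] (π' : H' →* Perm Ω') (ρ' : H' →* End K W), Cfg π' ρ' → Fintype.card Ω' = Fintype.card Ω - l →
      (∃ h, Od h ∧ ρ' h ≠ 1) → d ≤ finrank K W) : (l - 1) * d ≤ finrank K V ∨ NatH π ρ := by
  obtain ⟨c, c1, c2, c3⟩ := C.φolift e σ l ho h1
  obtain ⟨x, x1, -, x3⟩ := C.φolift e τ 3 (by decide) h4
  obtain ⟨g, g1⟩ := C.φlift e γ h2
  have hg := C.φconj e g1 c1 c1 c3 c3 a h3
  refine (dich ρ hl hK c2 hg ha {y | y ∈ sub π (fun w => π c w = w) ∧ Od y}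
    (fun y hy => ⟨conj_fix hg hy.1, by simpa using hy.2.conj g⁻¹⟩) fun μ ⟨y, hy, w, hw, n⟩ => ?_).imp_right fun h => ?_
  · exact hd _ _ _ _ _ (C.res _ (eig_inv μ (C.comm_fix c3))) (by rw [card_fix, c1, φ_card, h7]) ⟨⟨y, hy.1⟩, od_sub _ hy.2,
      fun e => n (congrArg Subtype.val (LinearMap.congr_fun e ⟨w, hw⟩))⟩
  · exact C.toNat h8 x3 (x1 ▸ φ_three e h5) (φ_fix e c1 x1 fun i hi => by_contra fun n => hi (h6 i n))
      (c1 ▸ φ_ne e fun e => by rw [e, support_one, Finset.card_empty] at h7; exact hl.ne_zero h7.symm)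
      (z_symm (C.comm_fix c3 x (φ_fix e x1 c1 h6)) (h x ⟨φ_fix e x1 c1 h6, x3⟩))

/-- dichotomy with commutators off the support of `c` -/
theorem dich_comm (C : Cfg π ρ) (h9 : 9 ≤ Fintype.card Ω) {k l a : ℕ} (e : Fin k ↪ Ω) {σ γ τ υ υ' : Perm (Fin k)} (hl : l.Prime)
    (ho : Odd l) (hK : (l : K) ≠ 0) (h1 : σ ^ l = 1) (h2 : sign γ = 1) (h3 : γ * σ * γ⁻¹ = σ ^ a)
    (ha : ∀ j < l, 0 < j → ∃ i < l, a ^ i % l = j) (h4 : τ ^ 3 = 1) (h5 : τ.support.card = 3) (h7 : σ ≠ 1)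
    (u1 : υ ^ 3 = 1) (u2 : υ' ^ 3 = 1) (u3 : (υ * υ' * υ⁻¹ * υ'⁻¹).support.card = 4)
    (u4 : ∀ i, (υ i ≠ i ∨ υ' i ≠ i) → (υ * υ' * υ⁻¹ * υ'⁻¹) i ≠ i)
    (u5 : ∀ i, (σ i ≠ i ∨ τ i ≠ i) → (υ * υ' * υ⁻¹ * υ'⁻¹) i = i) : (l - 1) * 2 ≤ finrank K V ∨ NatH π ρ := by
  obtain ⟨c, c1, c2, c3⟩ := C.φolift e σ l ho h1
  obtain ⟨x, x1, -, x3⟩ := C.φolift e τ 3 (by decide) h4
  obtain ⟨y, y1, -, y3⟩ := C.φolift e υ 3 (by decide) u1
  obtain ⟨y', y1', -, y3'⟩ := C.φolift e υ' 3 (by decide) u2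
  obtain ⟨g, g1⟩ := C.φlift e γ h2
  have hg := C.φconj e g1 c1 c1 c3 c3 a h3
  refine (dich ρ hl hK c2 hg ha {t | ∃ y ∈ sub π (fun w => π c w = w), ∃ y' ∈ sub π (fun w => π c w = w),
    t = y * y' * y⁻¹ * y'⁻¹} ?_ ?_).imp_right fun h => ?_
  · rintro _ ⟨y, hy, y', hy', rfl⟩
    exact ⟨_, conj_fix hg hy, _, conj_fix hg hy', by group⟩
  · rintro μ ⟨_, ⟨y, hy, y', hy', rfl⟩, w, hw, n⟩
    exact two_le_of_comm ρ (fun h hh => eig_inv μ (C.comm_fix c3) h ((closure_le _).2 (by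
      simp [Set.insert_subset_iff, hy, hy']) hh)) hw n
  · have t1 : π (y * y' * y⁻¹ * y'⁻¹) = φ e (υ * υ' * υ⁻¹ * υ'⁻¹) := by simp [y1, y1']
    have m1 : y ∈ sub π (fun w => π c w = w) := φ_fix e y1 c1 fun i hi => by_contra fun n => u4 i (.inl hi) (u5 i (.inl n))
    have m2 : y' ∈ sub π (fun w => π c w = w) := φ_fix e y1' c1 fun i hi => by_contra fun n => u4 i (.inr hi) (u5 i (.inl n))
    have cm : ∀ b ∈ sub π (fun w => π (y * y' * y⁻¹ * y'⁻¹) w = w), Commute b (y * y' * y⁻¹ * y'⁻¹) := fun b hb => by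
      have k : ∀ {z ζ}, π z = φ e ζ → Od z → (∀ i, ζ i ≠ i → (υ * υ' * υ⁻¹ * υ'⁻¹) i ≠ i) → Commute b z := fun {z ζ} e1 oz hz =>
        C.comm_fix oz b fun w hw => hb w fun e2 => hw (by
          by_cases hr : w ∈ Set.range e
          · obtain ⟨i, rfl⟩ := hr
            simp only [t1, e1, φ_app, e.apply_eq_iff_eq] at e2 ⊢
            exact by_contra fun n => hz i n e2
          · exact e1 ▸ φ_out e _ hr)
      have k1 := k y1 y3 fun i hi => u4 i (.inl hi)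
      have k2 := k y1' y3' fun i hi => u4 i (.inr hi)
      exact ((k1.mul_right k2).mul_right k1.inv_right).mul_right k2.inv_right
    have mc := φ_fix e c1 t1 fun i hi => u5 i (.inl hi)
    have mx := φ_fix e x1 t1 fun i hi => u5 i (.inr hi)
    have := C.spread _ (by rw [card_fix, t1, φ_card, u3]; omega) cm mc (c1 ▸ φ_ne e h7)
      (z_symm (cm c mc).symm (h _ ⟨y, m1, y', m2, rfl⟩)) mx x3
    exact C.toNat (by omega) x3 (x1 ▸ φ_three e h5) (φ_fix e t1 x1 fun i hi => by_contra fun n => hi (u5 i (.inr n)))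
      (t1 ▸ φ_ne e fun e => by rw [e, support_one] at u3; cases u3) (z_symm (cm x mx) this)

set_option maxRecDepth 4000 in
theorem proj_bound (p : ℕ) [Fact p.Prime] [CharP K p] (r : ℕ) (hr : 9 ≤ r) :
    ∀ (H : Type u) [Group H] [Finite H] (Ω : Type) [Fintype Ω] [DecidableEq Ω] (V : Type v) [AddCommGroup V] [Module K V]
      [FiniteDimensional K V] (π : H →* Perm Ω) (ρ : H →* End K V), Cfg π ρ → Fintype.card Ω = r →
      (∃ h, Od h ∧ ρ h ≠ 1) → r - 1 - (if p ∣ r then 1 else 0) ≤ finrank K V := by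
  induction r using Nat.strong_induction_on with
  | _ r ih =>
  intro H _ _ Ω _ _ V _ _ _ π ρ C hΩ hn
  have fin : ∀ {d}, d ≤ finrank K V ∨ NatH π ρ → r - 1 - (if p ∣ r then 1 else 0) ≤ d →
      r - 1 - (if p ∣ r then 1 else 0) ≤ finrank K V := fun h h' =>
    h.elim h'.trans fun hN => hΩ ▸ nat_bound p C (by omega) hN hn
  have cast : ∀ l : ℕ, l.Prime → p ≠ l → (l : K) ≠ 0 := fun l hl n e =>
    n ((Nat.prime_dvd_prime_iff_eq Fact.out hl).1 ((CharP.cast_eq_zero_iff K p l).1 e))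
  have emb : ∀ k ≤ r, Nonempty (Fin k ↪ Ω) := fun k hk => Function.Embedding.nonempty_of_card_le (by simpa [hΩ] using hk)
  by_cases h5 : p = 5
  · have h3 := cast 3 Nat.prime_three (by omega)
    obtain ⟨e⟩ := emb 6 (by omega)
    have d3 := fun d => dich_odd (d := d) C (by omega) e (σ := swap 0 2 * swap 0 1) (γ := swap 1 2 * swap 3 4)
      (τ := swap 3 5 * swap 3 4) (a := 2) Nat.prime_three (by decide) h3 (by decide) (by decide) (by decide) (by decide)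
      (by decide) (by decide) (by decide) (by decide)
    by_cases h12 : 12 ≤ r
    · exact fin (d3 (r - 5) fun H _ _ Ω _ _ W _ _ _ π ρ C h hn => le_trans (by split_ifs <;> omega)
        (ih (r - 3) (by omega) (by omega) H Ω W π ρ C (by omega) hn)) (by omega)
    by_cases h11 : r = 11
    · obtain ⟨e⟩ := emb 11 (by omega)
      exact fin (dich_comm C (by omega) e (σ := swap 0 6 * swap 0 5 * swap 0 4 * swap 0 3 * swap 0 2 * swap 0 1)
        (γ := swap 1 5 * swap 1 4 * swap 1 6 * swap 1 2 * swap 1 3 * swap 7 8) (τ := swap 0 2 * swap 0 1)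
        (υ := swap 7 9 * swap 7 8) (υ' := swap 7 10 * swap 7 8) (a := 3) (l := 7) (by decide) (by decide)
        (cast 7 (by decide) (by omega)) (by decide) (by decide) (by decide) (by decide) (by decide) (by decide) (by decide)
        (by decide) (by decide) (by decide) (by decide) (by decide)) (by omega)
    · exact fin (d3 4 fun H _ _ Ω _ _ W _ _ _ π ρ C h hn => bd6 h3 C (by omega) hn) (by
        obtain rfl | rfl : r = 9 ∨ r = 10 := by omega
        · omega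
        · subst h5; decide)
  have h5' := cast 5 Nat.prime_five h5
  by_cases h14 : 14 ≤ r
  · obtain ⟨e⟩ := emb 8 (by omega)
    exact fin (dich_odd (d := r - 7) C (by omega) e (σ := swap 0 4 * swap 0 3 * swap 0 2 * swap 0 1)
      (γ := swap 1 3 * swap 1 4 * swap 1 2 * swap 5 6) (τ := swap 5 7 * swap 5 6) (a := 2) Nat.prime_five (by decide) h5'
      (by decide) (by decide) (by decide) (by decide) (by decide) (by decide) (by decide) (by decide)
      fun H _ _ Ω _ _ W _ _ _ π ρ C h hn => le_trans (by split_ifs <;> omega)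
        (ih (r - 5) (by omega) (by omega) H Ω W π ρ C (by omega) hn)) (by omega)
  by_cases h10 : 10 ≤ r
  · exact fin (bd10 h5' C (by omega)) (by omega)
  · obtain ⟨e⟩ := emb 9 (by omega)
    exact fin (dich_comm C (by omega) e (σ := swap 0 4 * swap 0 3 * swap 0 2 * swap 0 1)
      (γ := swap 1 3 * swap 1 4 * swap 1 2 * swap 5 6) (τ := swap 0 2 * swap 0 1)
      (υ := swap 5 7 * swap 5 6) (υ' := swap 5 8 * swap 5 6) (a := 2) Nat.prime_five (by decide) h5'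
      (by decide) (by decide) (by decide) (by decide) (by decide) (by decide) (by decide)
      (by decide) (by decide) (by decide) (by decide) (by decide)) (by omega)

end Cfsg.Agent.AltRep
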