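import Cfsg.Agent.AltRep.C
import Cfsg.Agent.Perm.FpfRep

/-! Alternating sections of linear groups, part D (helper7): the Feit–Tits reduction. `sec_bound`: if `A_r` (`r ≥ 9`) is a
quotient of a finite group with a faithful representation of degree `n` in characteristic `p` then `n ≥ r - 1 - [p ∣ r]`. -/
set_option autoImplicit false
set_option linter.unusedSectionVars false
open Module Equiv Equiv.Perm Subgroup
open scoped TensorProduct commutatorElement

namespace Cfsg.Agent.AltRep
universe u v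
variable {Ω : Type} [Fintype Ω] [DecidableEq Ω] {H : Type u} [Group H] [Finite H] {π : H →* Perm Ω}

/-- base change to the algebraic closure -/
theorem exists_bc {F W : Type*} [Field F] [AddCommGroup W] [Module F W] [FiniteDimensional F W] (ρ : H →* End F W) :
    ∃ ρ' : H →* End (AlgebraicClosure F) (AlgebraicClosure F ⊗[F] W), ∀ h, ρ' h = 1 → ρ h = 1 :=
  ⟨(End.baseChangeHom F (AlgebraicClosure F) W : End F W →* _).comp ρ, fun h e =>
    (show Function.Injective (End.baseChangeHom F (AlgebraicClosure F) W) from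
      LinearMap.baseChangeHom_injective F W _) (e.trans (map_one _).symm)⟩

theorem lin_bound {F W : Type*} [Field F] [AddCommGroup W] [Module F W] [FiniteDimensional F W] (l : ℕ) [Fact l.Prime] [CharP F l]
    (h9 : 9 ≤ Fintype.card Ω) (ρ : alternatingGroup Ω →* End F W) (hn : ∃ h, ρ h ≠ 1) : Fintype.card Ω - 2 ≤ finrank F W := by
  obtain ⟨ρ', h'⟩ := exists_bc ρ
  have C : Cfg (alternatingGroup Ω).subtype ρ' :=
    ⟨range_subtype _, fun z hz => by rw [show z = 1 from Subtype.ext hz]; exact one_mem _,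
      fun z hz => by rw [show z = 1 from Subtype.ext hz, one_pow], fun z hz => .inl (by rw [show z = 1 from Subtype.ext hz, map_one])⟩
  have := proj_bound l _ h9 _ Ω _ _ ρ' C rfl (by
    by_contra! h
    obtain ⟨g, n⟩ := hn
    exact n (h' g ((C.top_of_od ρ'.ker (fun z hz => by rw [show z = 1 from Subtype.ext hz]; exact one_mem _) h).ge (mem_top g))))
  rw [finrank_baseChange] at this
  exact le_trans (by split_ifs <;> omega) this

theorem elem_bound' {A : Type u} [AddCommGroup A] [Finite A] (l : ℕ) [hl : Fact l.Prime] [Module (ZMod l) A]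
    (h9 : 9 ≤ Fintype.card Ω) (σ : alternatingGroup Ω →* MulAut (Multiplicative A)) (hn : ∃ h, σ h ≠ 1) :
    2 ^ (Fintype.card Ω - 2) ≤ Nat.card A := by
  let ρ : alternatingGroup Ω →* End (ZMod l) A :=
    { toFun := fun h => AddMonoidHom.toZModLinearMap l
        { toFun := fun x => (σ h (Multiplicative.ofAdd x)).toAdd
          map_zero' := by simp
          map_add' := fun a b => by rw [ofAdd_add, map_mul, toAdd_mul] }
      map_one' := LinearMap.ext fun x => by
        change (σ 1 (Multiplicative.ofAdd x)).toAdd = x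
        rw [map_one]; rfl
      map_mul' := fun a b => LinearMap.ext fun x => by
        change (σ (a * b) (Multiplicative.ofAdd x)).toAdd = (σ a (σ b (Multiplicative.ofAdd x))).toAdd
        rw [map_mul]; rfl }
  haveI : Module.Finite (ZMod l) A := Module.Finite.of_finite
  have := lin_bound l h9 ρ (by
    obtain ⟨h, n⟩ := hn
    exact ⟨h, fun e => n (MulEquiv.ext fun a => congrArg Multiplicative.ofAdd (LinearMap.congr_fun e a.toAdd))⟩)
  rw [natCard_eq_pow_finrank (K := ZMod l), Nat.card_zmod]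
  exact (Nat.pow_le_pow_right two_pos this).trans (Nat.pow_le_pow_left hl.out.two_le _)

theorem elem_bound {A : Type u} [Group A] [Finite A] (l : ℕ) [hl : Fact l.Prime] (hc : ∀ a b : A, a * b = b * a) (he : ∀ a : A, a ^ l = 1)
    (h9 : 9 ≤ Fintype.card Ω) (σ : alternatingGroup Ω →* MulAut A) (hn : ∃ h, σ h ≠ 1) : 2 ^ (Fintype.card Ω - 2) ≤ Nat.card A := by
  letI : CommGroup A := { mul_comm := hc }
  letI : Module (ZMod l) (Additive A) := AddCommGroup.zmodModule fun x => by
    rw [← ofMul_toMul x, ← ofMul_pow, he, ofMul_one]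
  haveI : Finite (Additive A) := inferInstanceAs (Finite A)
  exact elem_bound' (A := Additive A) l h9 σ hn

/-- `H` is a Frattini extension of `A_Ω` -/
structure Fr (π : H →* Perm Ω) : Prop where
  rng : π.range = alternatingGroup Ω
  min : ∀ M : Subgroup H, M.map π = alternatingGroup Ω → M = ⊤

theorem Fr.perfect (F : Fr π) (h5 : 5 ≤ Fintype.card Ω) : _root_.commutator H = ⊤ :=
  F.min _ (by rw [commutator_def, map_commutator, ← MonoidHom.range_eq_map, F.rng,
    commutator_alternatingGroup_eq_self (by simpa using h5)])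

theorem Fr.le_ker (F : Fr π) (h5 : 5 ≤ Fintype.card Ω) {N : Subgroup H} [hN : N.Normal] (n : N ≠ ⊤) : N ≤ π.ker := by
  let π' : H →* alternatingGroup Ω := π.codRestrict _ fun g => F.rng.le ⟨g, rfl⟩
  have hs : Function.Surjective π' := fun σ => by
    obtain ⟨g, hg⟩ := F.rng.ge σ.2
    exact ⟨g, Subtype.ext hg⟩
  have := hN.map π' hs
  rcases alternatingGroup.normal_subgroup_eq_bot_or_eq_top (N := N.map π') (by simpa using h5) with e | e
  · exact fun h hh => congrArg Subtype.val (mem_bot.1 (e.le ⟨h, hh, rfl⟩))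
  · refine absurd (F.min _ ?_) n
    have := congrArg (map (alternatingGroup Ω).subtype) e
    rwa [map_map, ← MonoidHom.range_eq_map, range_subtype] at this

theorem Fr.index (F : Fr π) (h5 : 5 ≤ Fintype.card Ω) {M : Subgroup H} (n : M ≠ ⊤) : Fintype.card Ω ≤ M.index := by
  have h1 := index_dvd_of_le (F.le_ker h5 (N := M.normalCore) fun e => n (top_le_iff.1 (e.ge.trans (normalCore_le M))))
  have : Nontrivial Ω := Fintype.one_lt_card_iff_nontrivial.1 (by omega)
  rw [normalCore_eq_ker, index_ker, index_ker, F.rng] at h1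
  have h2 := Nat.le_of_dvd (Nat.factorial_pos _) (h1.trans (Nat.card_perm (α := H ⧸ M) ▸ card_subgroup_dvd_card _))
  have h3 := two_mul_nat_card_alternatingGroup (α := Ω)
  rw [Nat.card_perm, Nat.card_eq_fintype_card (α := Ω)] at h3
  by_contra h
  have h4 := Nat.factorial_le (show Nat.card (H ⧸ M) ≤ Fintype.card Ω - 1 from Nat.le_sub_one_of_lt (not_le.1 h))
  have h5' := Nat.mul_factorial_pred (show Fintype.card Ω ≠ 0 by omega)
  have := Nat.factorial_pos (Fintype.card Ω - 1)
  nlinarith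

theorem Fr.nil (F : Fr π) : Group.IsNilpotent π.ker := by
  have : π.ker ≤ frattini H := le_iInf₂ fun M hM => by_contra fun n => hM.1 (F.min _ (by
    have := congrArg (map π) (hM.2 _ (left_lt_sup.2 n))
    rwa [Subgroup.map_sup, (map_eq_bot_iff π.ker).2 le_rfl, sup_bot_eq, ← MonoidHom.range_eq_map, F.rng] at this))
  have := frattini_nilpotent (G := H)
  exact Group.nilpotent_of_mulEquiv (subgroupOfEquivOfLe ‹_›)

theorem two_pow_aux (r : ℕ) (h : 9 ≤ r) : (r - 1) * (r - 1) ≤ 2 ^ (r - 2) := by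
  induction r, h using Nat.le_induction with
  | base => decide
  | succ n hn ih =>
    obtain ⟨m, rfl⟩ := Nat.exists_eq_add_of_le' (show 2 ≤ n by omega)
    simp only [show m + 2 - 1 = m + 1 by omega, show m + 2 + 1 - 1 = m + 2 by omega, show m + 2 + 1 - 2 = m + 1 by omega,
      Nat.add_sub_cancel, pow_succ] at ih ⊢
    nlinarith

variable {K : Type*} [Field K] [IsAlgClosed K] (p : ℕ) [Fact p.Prime] [CharP K p]

theorem irr_faith {V : Type v} [AddCommGroup V] [Module K V] [FiniteDimensional K V] [Nontrivial V] (F : Fr π)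
    (h9 : 9 ≤ Fintype.card Ω) {ρ : H →* End K V} (hf : ∀ h, ρ h = 1 → h = 1)
    (hi : ∀ W : Submodule K V, (∀ h, ∀ w ∈ W, ρ h w ∈ W) → W ≠ ⊥ → W = ⊤) :
    Fintype.card Ω - 1 - (if p ∣ Fintype.card Ω then 1 else 0) ≤ finrank K V := by
  classical
  have inj : Function.Injective ρ := fun a b e => eq_of_mul_inv_eq_one (hf _ (by rw [map_mul, e, ← map_mul, mul_inv_cancel, map_one]))
  have P : Group.IsPerfect H := ⟨F.perfect (by omega)⟩
  by_cases hA : ∃ A : Subgroup H, A.Normal ∧ (∀ a ∈ A, ∀ b ∈ A, Commute a b) ∧ ¬ A ≤ center H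
  · obtain ⟨A, nA, cA, hA⟩ := hA
    obtain ⟨v, v0, hv⟩ := Perm.exists_common_eigenvector (ρ '' A) (by
      rintro _ ⟨a, ha, rfl⟩ _ ⟨b, hb, rfl⟩; exact (cA a ha b hb).map ρ)
    choose! l hl using fun a (ha : a ∈ A) => hv _ ⟨a, ha, rfl⟩
    have cj : ∀ a ∈ A, ∀ g, g⁻¹ * a * g ∈ A := fun a ha g => by simpa using nA.conj_mem a ha g⁻¹
    have ev : ∀ g, ∀ a ∈ A, ∀ w, ρ (g⁻¹ * a * g) w = l (g⁻¹ * a * g) • w → ρ a (ρ g w) = l (g⁻¹ * a * g) • ρ g w :=
      fun g a _ w h => by rw [← map_smul, ← h, ← End.mul_apply, ← End.mul_apply, ← map_mul, ← map_mul]; congr 2; group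
    let M : Subgroup H :=
      { carrier := {g | ∀ a ∈ A, l (g⁻¹ * a * g) = l a}
        one_mem' := by simp
        mul_mem' := fun {g h} hg hh a ha => by rw [← hg a ha, ← hh _ (cj a ha g)]; congr 1; group
        inv_mem' := fun {g} hg a ha => by rw [← hg _ (cj a ha g⁻¹)]; congr 1; group }
    have hM : M ≠ ⊤ := fun e => hA fun a ha => mem_center_iff.2 fun g => inj (by
      have := hi (⨅ a : A, (ρ a).eigenspace (l a)) (fun h w hw => (Submodule.mem_iInf _).2 fun a =>
        End.mem_eigenspace_iff.2 (by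
          rw [ev h a a.2 w (End.mem_eigenspace_iff.1 ((Submodule.mem_iInf _).1 hw ⟨_, cj a a.2 h⟩)), e.ge (mem_top h) a a.2]))
        fun e => v0 ((Submodule.eq_bot_iff _).1 e v ((Submodule.mem_iInf _).2 fun a => End.mem_eigenspace_iff.2 (hl a a.2)))
      have h1 : ∀ w, ρ a w = l a • w := fun w =>
        End.mem_eigenspace_iff.1 ((Submodule.mem_iInf _).1 (this.ge Submodule.mem_top) ⟨a, ha⟩)
      ext w; simp [h1])
    have := Fintype.ofFinite (H ⧸ M)
    have h1 := (li_of_wt (fun a : A => ρ a) (fun (x : H ⧸ M) a => l (x.out⁻¹ * a * x.out)) (fun x y e => by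
      rw [← x.out_eq, ← y.out_eq]
      refine QuotientGroup.eq.2 fun a ha => ?_
      have := congrFun e ⟨_, cj a ha x.out⁻¹⟩
      simp only at this
      rw [show a = x.out⁻¹ * (x.out⁻¹⁻¹ * a * x.out⁻¹) * x.out by group, this]; congr 1; group)
      (fun x => ρ x.out v) (fun x => app_ne ρ _ v0) fun x a => ev _ a a.2 v (hl _ (cj a a.2 _))).fintype_card_le_finrank
    have h2 := F.index (by omega) hM
    rw [index, Nat.card_eq_fintype_card] at h2
    omega
  push Not at hA
  have sc : ∀ z ∈ center H, ∃ c : K, ρ z = c • 1 := fun z hz => by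
    obtain ⟨c, hc⟩ := (ρ z).exists_eigenvalue
    have := hi _ (fun h => eig_inv (ρ := ρ) (L := ⊤) c (fun y _ => mem_center_iff.1 hz y) h trivial) hc
    exact ⟨c, LinearMap.ext fun w => End.mem_eigenspace_iff.1 (this.ge Submodule.mem_top)⟩
  choose! s hs using sc
  by_cases hk : π.ker ≤ center H
  · have h2 := Schur.alt_ker_le_two hk F.rng (by rw [P.commutator_eq_top]; exact le_top) (by omega)
    have sq : ∀ z, π z = 1 → z ^ 2 = 1 := fun z hz => by
      have h3 : (⟨z, hz⟩ : π.ker) ^ Nat.card π.ker = 1 := pow_card_eq_one'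
      have h4 : z ^ Nat.card π.ker = 1 := congrArg Subtype.val h3
      have := Nat.card_pos (α := π.ker)
      obtain e | e : Nat.card π.ker = 1 ∨ Nat.card π.ker = 2 := by omega
      · rw [e, pow_one] at h4; rw [h4, one_pow]
      · rwa [e] at h4
    have C : Cfg π ρ := ⟨F.rng, hk, sq, fun z hz => by
      have h3 := congrArg ρ (sq z hz)
      rw [map_pow, hs z (hk hz), map_one, smul_pow, one_pow] at h3
      have h4 : s z ^ 2 = 1 := smul_left_injective K (one_ne_zero (α := End K V)) (h3.trans (one_smul _ _).symm)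
      rw [hs z (hk hz)]
      exact (sq_eq_one_iff.1 h4).imp (fun e => by simp [e]) fun e => by simp [e]⟩
    obtain ⟨e⟩ : Nonempty (Fin 3 ↪ Ω) := Function.Embedding.nonempty_of_card_le (by simp; omega)
    obtain ⟨x, x1, -, x3⟩ := C.φolift e (swap 0 2 * swap 0 1) 3 (by decide) (by decide)
    exact proj_bound p _ h9 H Ω V π ρ C rfl ⟨x, x3, fun h => φ_ne e (by decide) (x1.symm.trans (by rw [hf x h, map_one]))⟩
  obtain ⟨b, hb, hb1, hb2⟩ : ∃ b ∈ π.ker, b ∉ center H ∧ ∀ k ∈ π.ker, ⁅b, k⁆ ∈ center H := by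
    by_contra! h
    obtain ⟨n, hn⟩ := F.nil.nilpotent
    have : ∀ i, ∀ x ∈ Subgroup.upperCentralSeries π.ker i, (x : H) ∈ center H := fun i => by
      induction i with
      | zero => intro x hx; rw [mem_bot.1 hx]; exact one_mem _
      | succ i ih =>
        intro x hx
        by_contra n
        obtain ⟨k, hk, n'⟩ := h x x.2 n
        exact n' (ih _ (Subgroup.mem_upperCentralSeries_succ_iff.1 hx ⟨k, hk⟩))
    exact hk fun x hx => this n ⟨x, hx⟩ (hn.ge (mem_top _))
  let m := QuotientGroup.mk' (center H)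
  have m1 : ∀ {x}, m x = 1 ↔ x ∈ center H := QuotientGroup.eq_one_iff _
  obtain ⟨l, hl, hl'⟩ := Nat.exists_prime_and_dvd (show orderOf (m b) ≠ 1 from fun e => hb1 (m1.1 (orderOf_eq_one_iff.1 e)))
  have := Fact.mk hl
  have cm : ∀ k ∈ π.ker, Commute (m b) (m k) := fun k hk =>
    commutatorElement_eq_one_iff_commute.1 (by rw [← map_commutatorElement]; exact m1.2 (hb2 k hk))
  let A : Subgroup H :=
    { carrier := {a | a ∈ π.ker ∧ (∀ k ∈ π.ker, Commute (m a) (m k)) ∧ m a ^ l = 1}
      one_mem' := by simp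
      mul_mem' := fun {x y} hx hy => ⟨mul_mem hx.1 hy.1, fun k hk => by
        rw [map_mul]; exact (hx.2.1 k hk).mul_left (hy.2.1 k hk), by
        rw [map_mul, (hx.2.1 y hy.1).mul_pow, hx.2.2, hy.2.2, mul_one]⟩
      inv_mem' := fun {x} hx => ⟨inv_mem hx.1, fun k hk => by rw [map_inv]; exact (hx.2.1 k hk).inv_left, by
        rw [map_inv, inv_pow, hx.2.2, inv_one]⟩ }
  have nA : A.Normal := ⟨fun a ha g => ⟨π.normal_ker.conj_mem a ha.1 g, fun k hk => by
    have := ha.2.1 _ (π.normal_ker.conj_mem k hk g⁻¹)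
    have := this.map (MulAut.conj (m g))
    simpa [mul_assoc] using this, by simp only [map_mul, map_inv, conj_pow, ha.2.2, mul_one, mul_inv_cancel]⟩⟩
  have nB := nA.map m (QuotientGroup.mk'_surjective _)
  let π' : H →* alternatingGroup Ω := π.codRestrict _ fun g => F.rng.le ⟨g, rfl⟩
  have hs' : Function.Surjective π' := fun σ => by
    obtain ⟨g, hg⟩ := F.rng.ge σ.2
    exact ⟨g, Subtype.ext hg⟩
  let σ0 : H →* MulAut (A.map m) := MulAut.conjNormal.comp m
  have hker : π'.ker ≤ σ0.ker := fun k hk => MulEquiv.ext fun ⟨_, a, ha, rfl⟩ => Subtype.ext (by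
    change m k * m a * (m k)⁻¹ = m a
    rw [← (ha.2.1 k (congrArg Subtype.val hk)).eq, mul_inv_cancel_right])
  have h1 := elem_bound l (A := A.map m) (fun ⟨_, a, ha, rfl⟩ ⟨_, c, hc, rfl⟩ => Subtype.ext (ha.2.1 c hc.1).eq)
    (fun ⟨_, a, ha, rfl⟩ => Subtype.ext ha.2.2) h9 (π'.liftOfSurjective hs' ⟨σ0, hker⟩) (by
      by_contra! h
      have hb' : b ^ (orderOf (m b) / l) ∈ A := ⟨pow_mem hb _, fun k hk => by rw [map_pow]; exact (cm k hk).pow_left _, by
        rw [map_pow, ← pow_mul, Nat.div_mul_cancel hl', pow_orderOf_eq_one]⟩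
      have : m (b ^ (orderOf (m b) / l)) ∈ center (H ⧸ center H) := mem_center_iff.2 fun g => by
        obtain ⟨g, rfl⟩ := QuotientGroup.mk'_surjective _ g
        have := h (π' g)
        rw [MonoidHom.liftOfRightInverse_comp_apply] at this
        exact mul_inv_eq_iff_eq_mul.1 (congrArg Subtype.val (MulEquiv.congr_fun this ⟨_, _, hb', rfl⟩))
      rw [Group.IsPerfect.center_quotient_center_eq_bot, mem_bot, map_pow] at this
      exact pow_ne_one_of_lt_orderOf (Nat.div_pos (Nat.le_of_dvd (orderOf_pos _) hl') hl.pos).ne'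
        (Nat.div_lt_self (orderOf_pos _) hl.one_lt) this)
  choose a ha ha' using fun x : A.map m => mem_map.1 x.2
  have cz : ∀ x, ∀ c ∈ A, c * a x * c⁻¹ * (a x)⁻¹ ∈ center H := fun x c hc => m1.1 (by
    simp only [map_mul, map_inv, (hc.2.1 _ (ha x).1).eq]; group)
  have := Fintype.ofFinite (A.map m)
  have h2 := (li_of_wt (fun c : A => (LinearMap.mulLeft K (ρ c)).comp (LinearMap.mulRight K (ρ c⁻¹)))
    (fun x c => s (c * a x * (c : H)⁻¹ * (a x)⁻¹)) (fun x y e => Subtype.ext (by
      have h3 : ∀ c ∈ A, c * ((a y)⁻¹ * a x) = (a y)⁻¹ * a x * c := fun c hc => by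
        have := inj ((hs _ (cz x _ (inv_mem hc))).trans ((congrArg (· • (1 : End K V)) (congrFun e ⟨_, inv_mem hc⟩)).trans
          (hs _ (cz y _ (inv_mem hc))).symm))
        calc _ = (a y)⁻¹ * c * (c⁻¹ * a y * c⁻¹⁻¹ * (a y)⁻¹) * a x := by group
          _ = _ := by rw [← this]; group
      have := hA (A ⊓ centralizer A) inferInstance (fun u hu w hw => (hw.2 u hu.1)) (mem_inf.2 ⟨mul_mem (inv_mem (ha y)) (ha x), h3⟩)
      rw [← ha' x, ← ha' y, eq_comm, ← inv_mul_eq_one, ← map_inv, ← map_mul]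
      exact m1.2 this)) (fun x => ρ (a x))
    (fun x e => by
      have : ρ (a x) * ρ (a x)⁻¹ = 1 := by rw [← map_mul, mul_inv_cancel, map_one]
      rw [e, zero_mul] at this
      exact zero_ne_one this)
    fun x c => by
      rw [← smul_one_mul, ← hs _ (cz x c c.2), ← map_mul, inv_mul_cancel_right]
      simp [mul_assoc]).fintype_card_le_finrank
  rw [finrank_linearMap, ← Nat.card_eq_fintype_card] at h2
  have h3 := two_pow_aux _ h9
  exact (Nat.sub_le _ _).trans (Nat.mul_self_le_mul_self_iff.1 (h3.trans (h1.trans h2)))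

theorem irr {V : Type v} [AddCommGroup V] [Module K V] [FiniteDimensional K V] (F : Fr π)
    (h9 : 9 ≤ Fintype.card Ω) {ρ : H →* End K V} (hn : ∃ h, ρ h ≠ 1)
    (hi : ∀ W : Submodule K V, (∀ h, ∀ w ∈ W, ρ h w ∈ W) → W ≠ ⊥ → W = ⊤) :
    Fintype.card Ω - 1 - (if p ∣ Fintype.card Ω then 1 else 0) ≤ finrank K V := by
  obtain ⟨h, n⟩ := hn
  have : Nontrivial V := not_subsingleton_iff_nontrivial.1 fun _ => n (Subsingleton.elim _ _)
  have hk := F.le_ker (by omega) (N := ρ.ker) fun e => n (e.ge (mem_top h))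
  refine irr_faith p (π := QuotientGroup.lift _ π hk) (ρ := QuotientGroup.lift _ ρ fun _ h => h) ⟨?_, fun M hM => ?_⟩ h9
    (fun z hz => ?_) fun W hW => hi W fun g => hW g
  · rw [← F.rng]; ext σ
    exact ⟨fun ⟨z, hz⟩ => by obtain ⟨z, rfl⟩ := QuotientGroup.mk_surjective z; exact ⟨z, hz⟩, fun ⟨z, hz⟩ => ⟨z, hz⟩⟩
  · rw [← map_comap_eq_self_of_surjective (QuotientGroup.mk'_surjective ρ.ker) M] at hM ⊢
    rw [map_map] at hM
    rw [F.min _ hM, map_top_of_surjective _ (QuotientGroup.mk'_surjective _)]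
  · obtain ⟨z, rfl⟩ := QuotientGroup.mk_surjective z
    exact (QuotientGroup.eq_one_iff _).2 hz

theorem fr_bound (F : Fr π) (h9 : 9 ≤ Fintype.card Ω) (n : ℕ) : ∀ (V : Type v) [AddCommGroup V] [Module K V] [FiniteDimensional K V]
    (ρ : H →* End K V), finrank K V = n → (∃ h, ρ h ≠ 1) → Fintype.card Ω - 1 - (if p ∣ Fintype.card Ω then 1 else 0) ≤ n := by
  induction n using Nat.strong_induction_on with
  | _ n ih =>
  intro V _ _ _ ρ hV hn
  by_cases hi : ∀ W : Submodule K V, (∀ h, ∀ w ∈ W, ρ h w ∈ W) → W ≠ ⊥ → W = ⊤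
  · exact hV ▸ irr p F h9 hn hi
  push Not at hi
  obtain ⟨W, hW, h0, h1⟩ := hi
  have d := W.finrank_quotient_add_finrank
  have d1 := Submodule.finrank_lt h1
  have d2 : finrank K W ≠ 0 := fun e => h0 (Submodule.finrank_eq_zero.1 e)
  let ρ1 : H →* End K W :=
    { toFun := fun h => (ρ h).restrict (hW h), map_one' := by ext; simp, map_mul' := fun a b => by ext; simp }
  let ρ2 : H →* End K (V ⧸ W) :=
    { toFun := fun h => W.mapQ W (ρ h) (hW h), map_one' := by ext; simp, map_mul' := fun a b => by ext; simp }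
  by_cases n1 : ∃ h, ρ1 h ≠ 1
  · exact (ih _ (by omega) W ρ1 rfl n1).trans (by omega)
  by_cases n2 : ∃ h, ρ2 h ≠ 1
  · exact (ih _ (by omega) _ ρ2 rfl n2).trans (by omega)
  push Not at n1 n2
  have z : ∀ a b v, ρ a (ρ b v - v) = ρ b v - v := fun a b v => congrArg Subtype.val (LinearMap.congr_fun (n1 a)
    ⟨_, (Submodule.Quotient.eq W).1 (LinearMap.congr_fun (n2 b) (Submodule.Quotient.mk v))⟩)
  obtain ⟨h, n⟩ := hn
  refine (n ((F.perfect (by omega)).ge.trans (commutator_le (H₃ := ρ.ker).2 fun a _ b _ => ?_) (mem_top h))).elim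
  have : ρ (a * b) = ρ (b * a) := LinearMap.ext fun v => by
    have e1 := z a b v
    have e2 := z b a v
    rw [map_sub, sub_eq_iff_eq_add] at e1 e2
    simp only [map_mul, End.mul_apply, e1, e2]; abel
  rw [MonoidHom.mem_ker, commutatorElement_def, mul_assoc, map_mul, this, ← map_mul]
  simp [mul_assoc]

theorem sec_bound {F W : Type*} [Field F] [CharP F p] [AddCommGroup W] [Module F W] [FiniteDimensional F W]
    (hr : π.range = alternatingGroup Ω) (h9 : 9 ≤ Fintype.card Ω) (ρ : H →* End F W) (hf : ∀ h, ρ h = 1 → h = 1) :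
    Fintype.card Ω - 1 - (if p ∣ Fintype.card Ω then 1 else 0) ≤ finrank F W := by
  obtain ⟨ρ', h'⟩ := exists_bc ρ
  obtain ⟨M, hM, hmin⟩ := (wellFounded_lt (α := Subgroup H)).has_min {M | M.map π = alternatingGroup Ω}
    ⟨⊤, by rw [← hr, MonoidHom.range_eq_map]; rfl⟩
  have Fm : Fr (π.comp M.subtype) := ⟨by rw [MonoidHom.range_eq_map, ← map_map, ← MonoidHom.range_eq_map, range_subtype, hM],
    fun N hN => map_subtype_inj.1 (by
      rw [← MonoidHom.range_eq_map, range_subtype]
      exact (map_subtype_le N).eq_of_not_lt (hmin _ (by rwa [← map_map] at hN)))⟩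
  have := fr_bound p Fm h9 _ _ (ρ'.comp M.subtype) rfl (by
    have := alternatingGroup.nontrivial_of_three_le_card (α := Ω) (by rw [Nat.card_eq_fintype_card]; omega)
    obtain ⟨σ, n⟩ := exists_ne (1 : alternatingGroup Ω)
    obtain ⟨g, hg⟩ := Fm.rng.ge σ.2
    exact ⟨g, fun e => n (Subtype.ext (by rw [← hg, show g = 1 from Subtype.ext (hf _ (h' _ e)), map_one]; rfl))⟩)
  rwa [finrank_baseChange] at this

end Cfsg.Agent.AltRep
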